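import Mathlib
import Cfsg.Agent.Lib.Mit.Basic

/-! Invariants of the geometric subgroups of `SL₃(q)` ("columns" of the table of
non-containments).  See `plans/MITCHELL.md`. -/

set_option autoImplicit false

namespace CfsgLib.Mit.Gm

open Matrix Cfsg Cfsg.Geo CfsgLib.Asch
open scoped MatrixGroups commutatorElement

variable {F : Type*} [Field F] {M M' : Subgroup (GL (Fin 3) F)} {B x y : GL (Fin 3) F}

/-! ### change of basis -/

/-- `M` written in the basis formed by the columns of `B` -/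
def pull (B : GL (Fin 3) F) (M : Subgroup (GL (Fin 3) F)) : Subgroup (GL (Fin 3) F) :=
  M.comap (MulAut.conj B).toMonoidHom

theorem mem_pull : x ∈ pull B M ↔ B * x * B⁻¹ ∈ M := Iff.rfl

theorem pull_mono (B : GL (Fin 3) F) (h : M ≤ M') : pull B M ≤ pull B M' := Subgroup.comap_mono h

theorem pull_inf (B : GL (Fin 3) F) (M M' : Subgroup (GL (Fin 3) F)) :
    pull B (M ⊓ M') = pull B M ⊓ pull B M' := Subgroup.comap_inf _ _ _

theorem pull_eq_map (B : GL (Fin 3) F) (M : Subgroup (GL (Fin 3) F)) :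
    pull B M = M.map (MulAut.conj B⁻¹).toMonoidHom := by
  ext x
  rw [mem_map_conj, inv_inv, mem_pull]

theorem map_pull (B : GL (Fin 3) F) (M : Subgroup (GL (Fin 3) F)) :
    (pull B M).map (MulAut.conj B).toMonoidHom = M :=
  Subgroup.map_comap_eq_self_of_surjective (MulAut.conj B).surjective M

theorem card_pull (B : GL (Fin 3) F) (M : Subgroup (GL (Fin 3) F)) :
    Nat.card (pull B M) = Nat.card M := by
  rw [pull_eq_map]
  exact Subgroup.card_map_of_injective (MulAut.conj B⁻¹).injective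

theorem pull_SL (B : GL (Fin 3) F) :
    pull B (specialLinear (Fin 3) F) = specialLinear (Fin 3) F := by
  ext x
  rw [mem_pull, mem_specialLinear, mem_specialLinear, ← cj_coe, det_cj]

theorem eq_of_pull [Finite F] (hle : M ≤ M') {B B' : GL (Fin 3) F} (h : pull B M = pull B' M') :
    M' = M := by
  have := finite_gl (F := F)
  refine (Subgroup.eq_of_le_of_card_ge hle ?_).symm
  rw [← card_pull B M, h, card_pull]

theorem env_top_of_pull (h : env (pull B M) = ⊤) : env M = ⊤ := by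
  rw [← map_pull B M, env_map_conj, h, Algebra.map_top, AlgHom.range_eq_top]
  exact (cj B).surjective

theorem conj_comm (B x y : GL (Fin 3) F) : ⁅B * x * B⁻¹, B * y * B⁻¹⁆ = B * ⁅x, y⁆ * B⁻¹ := by
  simp only [commutatorElement_def]
  group

theorem tr_conj_inv (B x : GL (Fin 3) F) : tr (B * x * B⁻¹)⁻¹ = tr x⁻¹ := by
  rw [conj_inv, tr_conj]

/-- maximality from the list of maximal subgroups -/
theorem isMaximalIn_of_forall {G : Type*} [Group G] [Finite G] {K H : Subgroup G} (h1 : H ≤ K)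
    (h2 : ¬ K ≤ H) (h : ∀ M, IsMaximalIn K M → H ≤ M → M = H) : IsMaximalIn K H := by
  refine ⟨lt_of_le_not_ge h1 h2, fun M hM hK => ?_⟩
  by_cases e : M = K
  · exact Or.inr e
  obtain ⟨N, hN, hmax⟩ := (Set.toFinite {N : Subgroup G | N < K}).exists_le_maximal
    (show M ∈ {N : Subgroup G | N < K} from lt_of_le_of_ne hK e)
  have : IsMaximalIn K N := ⟨hmax.1, fun L hL hLK => by
    by_cases e' : L = K
    · exact Or.inr e'
    · exact Or.inl (le_antisymm (hmax.2 (lt_of_le_of_ne hLK e') hL) hL)⟩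
  exact Or.inl (le_antisymm (h N this (hM.trans hN) ▸ hN) hM)

/-! ### elements -/

/-- a matrix of determinant one as a group element -/
noncomputable def gl (A : M3 F) (h : A.det = 1) : GL (Fin 3) F :=
  GeneralLinearGroup.mkOfDetNeZero A (by rw [h]; exact one_ne_zero)

theorem coe_gl (A : M3 F) (h : A.det = 1) : (gl A h : M3 F) = A := rfl

theorem comm_eq {z : GL (Fin 3) F} (h : (x : M3 F) * y = z * (y * x)) : ⁅x, y⁆ = z := by
  have : x * y = z * (y * x) := Units.ext h
  rw [commutatorElement_def, this]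
  group

theorem tr_inv (h : (x : M3 F).det = 1) : tr x⁻¹ = (adjugate (x : M3 F)).trace := by
  rw [adjugate_coe h]

/-- `x` has an eigenvalue -/
def HasEig (x : GL (Fin 3) F) : Prop := ∃ c : F, ((x : M3 F) - c • (1 : M3 F)).det = 0

theorem hasEig_of_conj (h : HasEig (B * x * B⁻¹)) : HasEig x := by
  obtain ⟨c, hc⟩ := h
  refine ⟨c, ?_⟩
  rw [← det_cj B, map_sub, map_smul, map_one, cj_coe, hc]

theorem hasEig_of_tr (hd : (x : M3 F).det = 1) {m : F} (hm : m ^ 3 = 1) (h : tr x = m * tr x⁻¹) :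
    HasEig x := by
  refine ⟨m ^ 2, ?_⟩
  rw [det_sub_smul_one, hd, ← tr_inv hd]
  change tr x = _ at h
  change 1 - m ^ 2 * tr x⁻¹ + (m ^ 2) ^ 2 * tr x - (m ^ 2) ^ 3 = 0
  rw [h]
  linear_combination (m ^ 2 * tr x⁻¹ - m ^ 3 - 1) * hm

/-! ### reducible subgroups -/

structure Col1 (M : Subgroup (GL (Fin 3) F)) : Prop where
  env_ne : env M ≠ ⊤
  eig : ∀ x ∈ M, HasEig x

theorem col1_of_le {W : Submodule F (V3 F)} (h0 : W ≠ ⊥) (h1 : W ≠ ⊤)
    (h : M ≤ subspaceStabilizer W) : Col1 M := by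
  have h' := le_subspaceStabilizer_iff.1 h
  refine ⟨fun he => ?_, fun x hx => ?_⟩
  · rcases irred_iff.1 (absIrred_of_env he).1 W h' with e | e
    exacts [h0 e, h1 e]
  rcases point_or_line h0 h1 with ⟨v, h2, h3, h4⟩ | ⟨φ, h2, h3⟩
  · obtain ⟨c, hc⟩ := h4 _ (h' x hx v h2)
    exact ⟨c, Matrix.exists_mulVec_eq_zero_iff.1
      ⟨v, h3, by rw [sub_mulVec, hc, smul_mulVec, one_mulVec, sub_self]⟩⟩
  · obtain ⟨c, hc⟩ := parallel_of_ker (ψ := φ ᵥ* (x : M3 F)) h2 fun w hw => by
      rw [← dotProduct_mulVec]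
      exact (h3 _).1 (h' x hx w ((h3 w).2 hw))
    exact ⟨c, Matrix.exists_vecMul_eq_zero_iff.1
      ⟨φ, h2, by rw [vecMul_sub, hc, vecMul_smul, vecMul_one, sub_self]⟩⟩

/-! ### monomial subgroups -/

/-- the coordinate frame -/
def frame (F : Type*) [Field F] (i : Fin 3) : Submodule F (V3 F) := Submodule.span F {Pi.single i 1}

/-- the monomial group -/
def monG (F : Type*) [Field F] : Subgroup (GL (Fin 3) F) := decompositionStabilizer (frame F)

theorem map_frame_iff {i j : Fin 3} : (frame F i).map (toLin' (x : M3 F)) = frame F j ↔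
    ∀ k, k ≠ j → (x : M3 F) k i = 0 := by
  constructor
  · intro h k hk
    have : (x : M3 F) *ᵥ Pi.single i 1 ∈ frame F j :=
      h ▸ ⟨_, Submodule.mem_span_singleton_self _, rfl⟩
    obtain ⟨c, hc⟩ := Submodule.mem_span_singleton.1 this
    simpa [hk] using (congrFun hc k).symm
  · intro h
    refine map_span_of_eq_smul' (c := (x : M3 F) j i) (by simp) ?_
    ext k
    by_cases hk : k = j
    · simp [hk]
    · simp [hk, h k hk]
where
  map_span_of_eq_smul' {g : GL (Fin 3) F} {x y : V3 F} {c : F} (hx : x ≠ 0)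
      (h : (g : M3 F) *ᵥ x = c • y) :
      (Submodule.span F {x}).map (Matrix.toLin' (g : M3 F)) = Submodule.span F {y} := by
    have hc : c ≠ 0 := by
      rintro rfl
      apply hx
      rw [← inv_mulVec_mulVec g x, h, zero_smul, mulVec_zero]
    rw [Submodule.map_span, Set.image_singleton, toLin'_apply, h,
      Submodule.span_singleton_smul_eq hc.isUnit]

theorem mem_monG : x ∈ monG F ↔
    ∃ σ : Equiv.Perm (Fin 3), ∀ k i, k ≠ σ i → (x : M3 F) k i = 0 :=
  exists_congr fun _ => ⟨fun h k i => map_frame_iff.1 (h i) k,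
    fun h i => map_frame_iff.2 fun k => h k i⟩

theorem frame_injective : Function.Injective (frame F) := fun i j h => by
  by_contra hij
  have := (map_frame_iff (x := 1) (i := i) (j := j)).1 (by simpa using h) i hij
  simp at this

theorem pull_decomp {D : Fin 3 → Submodule F (V3 F)}
    (h : ∀ i, D i = Submodule.span F {fun k => (B : M3 F) k i}) :
    pull B (decompositionStabilizer D) = monG F := by
  have hD : ∀ i, D i = (frame F i).map (toLin' (B : M3 F)) := fun i => by
    rw [h, frame, Submodule.map_span, Set.image_singleton, toLin'_apply, mulVec_single_one]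
    rfl
  ext x
  refine mem_pull.trans (exists_congr fun σ => forall_congr' fun i => ?_)
  rw [hD, hD, ← Submodule.map_comp, ← toLin'_mul, ← Units.val_mul, inv_mul_cancel_right,
    Units.val_mul, toLin'_mul, Submodule.map_comp]
  exact (Submodule.map_injective_of_injective (toLin'_injective B)).eq_iff

theorem exists_pull_decomp {D : Fin 3 → Submodule F (V3 F)} (hD : IsMDecomposition 1 D)
    {b : Fin 3 → V3 F} (hb : ∀ i, b i ∈ D i) (h0 : ∀ i, b i ≠ 0) :
    ∃ B : GL (Fin 3) F, (B : M3 F) = (Matrix.of b)ᵀ ∧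
      pull B (decompositionStabilizer D) = monG F := by
  have h1 : ∀ i, D i = Submodule.span F {b i} := fun i =>
    (Submodule.eq_of_le_of_finrank_eq ((Submodule.span_singleton_le_iff_mem _ _).2 (hb i))
      (by rw [finrank_span_singleton (h0 i), hD.finrank_eq])).symm
  have h2 : IsUnit (Matrix.of b)ᵀ := by
    rw [isUnit_transpose, ← linearIndependent_rows_iff_isUnit]
    exact hD.indep.linearIndependent D hb h0
  obtain ⟨B, hB⟩ := h2
  exact ⟨B, hB, pull_decomp fun i => by rw [h1, hB]; rfl⟩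

/-- an action on three points with diagonal kernel -/
def Col2 (M : Subgroup (GL (Fin 3) F)) : Prop :=
  ∃ π : M →* Equiv.Perm (Fin 3), (∀ x y : M, π x = 1 → π y = 1 → x * y = y * x) ∧
    (∀ x : M, π x = 1 → HasEig (x : GL (Fin 3) F)) ∧
    ∀ x : M, π x = 1 → (((x : GL (Fin 3) F) : M3 F) - 1) ^ 3 = 0 → x = 1

theorem Col2.mono (h : Col2 M') (hle : M ≤ M') : Col2 M := by
  obtain ⟨π, h1, h2, h3⟩ := h
  exact ⟨π.comp (Subgroup.inclusion hle),
    fun x y hx hy => Subgroup.inclusion_injective hle (by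
      rw [map_mul, map_mul]; exact h1 _ _ hx hy), fun x hx => h2 _ hx,
    fun x hx e => Subgroup.inclusion_injective hle (by rw [map_one]; exact h3 _ hx e)⟩

theorem Col2.pull (h : Col2 M) (B : GL (Fin 3) F) : Col2 (pull B M) := by
  obtain ⟨π, h1, h2, h3⟩ := h
  let f : Gm.pull B M →* M := (MulAut.conj B).toMonoidHom.subgroupComap M
  have hf : Function.Injective f := fun a b e =>
    Subtype.ext ((MulAut.conj B).injective (congrArg Subtype.val e))
  refine ⟨π.comp f, fun x y hx hy => hf (by rw [map_mul, map_mul]; exact h1 _ _ hx hy),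
    fun x hx => hasEig_of_conj (h2 _ hx), fun x hx e => hf ?_⟩
  rw [map_one]
  refine h3 _ hx ?_
  change (((B * x * B⁻¹ : GL (Fin 3) F) : M3 F) - 1) ^ 3 = 0
  rw [← cj_coe, ← map_one (cj B), ← map_sub, ← map_pow, e, map_zero]

theorem col2_monG : Col2 (monG F) := by
  choose σ hσ using fun g : monG F => g.2
  let π : monG F →* Equiv.Perm (Fin 3) := MonoidHom.mk' σ fun a b => Equiv.ext fun i =>
    frame_injective (F := F) (by
      rw [← hσ (a * b), Equiv.Perm.mul_apply, ← hσ a, ← hσ b, ← Submodule.map_comp, ← toLin'_mul]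
      rfl)
  have key : ∀ x : monG F, π x = 1 → ∃ d : Fin 3 → F, ((x : GL (Fin 3) F) : M3 F) = diagonal d :=
    fun x hx => ⟨fun i => ((x : GL (Fin 3) F) : M3 F) i i, by
      ext k i
      by_cases hk : k = i
      · simp [hk]
      · rw [diagonal_apply_ne _ hk]
        refine map_frame_iff.1 (hσ x i) k ?_
        rwa [show σ x = 1 from hx]⟩
  refine ⟨π, fun x y hx hy => ?_, fun x hx => ?_, fun x hx e => ?_⟩
  · obtain ⟨d, hd⟩ := key x hx
    obtain ⟨d', hd'⟩ := key y hy
    refine Subtype.ext (Units.ext ?_)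
    simp only [Subgroup.coe_mul, Units.val_mul, hd, hd', diagonal_mul_diagonal, mul_comm]
  · obtain ⟨d, hd⟩ := key x hx
    refine ⟨d 0, ?_⟩
    rw [hd, det_fin_three]
    simp
  · obtain ⟨d, hd⟩ := key x hx
    refine Subtype.ext (Units.ext ?_)
    rw [hd, ← diagonal_one, diagonal_sub, diagonal_pow] at e
    rw [hd, OneMemClass.coe_one, Units.val_one, ← diagonal_one]
    congr 1
    ext i
    simpa [sub_eq_zero] using congrFun (congrFun e i) i

theorem exists_ne_zero_of_decomp {D : Fin 3 → Submodule F (V3 F)} (hD : IsMDecomposition 1 D)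
    (i : Fin 3) : ∃ v ∈ D i, v ≠ 0 := by
  rw [← Submodule.ne_bot_iff]
  intro h
  have := hD.finrank_eq i
  rw [h, finrank_bot] at this
  exact zero_ne_one this

theorem col2_of_le {D : Fin 3 → Submodule F (V3 F)} (hD : IsMDecomposition 1 D)
    (h : M ≤ decompositionStabilizer D) : Col2 M := by
  choose b hb h0 using exists_ne_zero_of_decomp hD
  obtain ⟨B, -, hB⟩ := exists_pull_decomp hD hb h0
  refine (col2_monG.pull B⁻¹).mono fun x hx => ?_
  rw [mem_pull, ← hB, mem_pull]
  simpa [mul_assoc] using h hx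

/-- a unipotent subgroup embeds in the symmetric group -/
theorem Col2.card_dvd (h : Col2 M) {A : Type*} [Group A] (φ : A →* GL (Fin 3) F)
    (hφ : Function.Injective φ) (hM : ∀ a, φ a ∈ M) (hu : ∀ a, ((φ a : M3 F) - 1) ^ 3 = 0) :
    Nat.card A ∣ 6 := by
  obtain ⟨π, -, -, h3⟩ := h
  have := Subgroup.card_dvd_of_injective (π.comp (φ.codRestrict M hM))
    ((injective_iff_map_eq_one _).2 fun a ha => hφ (by
      rw [map_one]
      exact congrArg Subtype.val (h3 _ ha (hu a))))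
  rwa [Nat.card_perm, Nat.card_eq_fintype_card (α := Fin 3), Fintype.card_fin] at this

/-- elements of prime order at least five are diagonal -/
theorem Col2.hasEig (h : Col2 M) (hx : x ∈ M) {l : ℕ} (hl : l.Prime) (h5 : 5 ≤ l)
    (e : x ^ l = 1) : HasEig x := by
  obtain ⟨π, -, h2, -⟩ := h
  refine h2 ⟨x, hx⟩ ?_
  have h1 : orderOf (π ⟨x, hx⟩) ∣ l := orderOf_dvd_of_pow_eq_one (by
    rw [← map_pow, show (⟨x, hx⟩ : M) ^ l = 1 from Subtype.ext e, map_one])
  have h6 : orderOf (π ⟨x, hx⟩) ∣ 6 := orderOf_dvd_card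
  rcases (Nat.dvd_prime hl).1 h1 with h | h
  · exact orderOf_eq_one_iff.1 h
  · rw [h] at h6
    have := Nat.le_of_dvd (by norm_num) h6
    interval_cases l
    · norm_num at h6
    · norm_num at hl

/-! ### normalisers of cubic subfields -/

section Field

variable {K : Subalgebra F (M3 F)}

theorem eq_smul_of_eig (hK : IsFieldSubalgebra 3 K) {a : M3 F} (ha : a ∈ K) {c : F}
    (h : (a - c • (1 : M3 F)).det = 0) : a = c • (1 : M3 F) := by
  by_contra hne
  obtain ⟨b, -, hb⟩ := hK.inv _ (K.sub_mem ha (K.smul_mem K.one_mem c)) (sub_ne_zero.2 hne)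
  have := congrArg det hb
  rw [det_mul, h, zero_mul, det_one] at this
  exact zero_ne_one this

theorem reg_of_not_scalar (hK : IsFieldSubalgebra 3 K) {a : M3 F} (ha : a ∈ K)
    (h : ∀ c : F, a ≠ c • (1 : M3 F)) : Reg a := by
  refine (reg_or a).resolve_right ?_
  rintro ⟨d, v, φ, e⟩
  exact h d (eq_smul_of_eig hK ha (by rw [e, add_sub_cancel_left, det_vecMulVec]))

theorem exists_not_scalar (hK : IsFieldSubalgebra 3 K) : ∃ a ∈ K, ∀ c : F, a ≠ c • (1 : M3 F) := by
  by_contra h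
  push Not at h
  have : K = ⊥ := eq_bot_iff.2 fun a ha => mem_bot_iff.2 (h a ha)
  have h3 := hK.finrank_eq
  rw [this, Subalgebra.finrank_bot] at h3
  omega

/-- a cubic subfield is its own centraliser -/
theorem mem_of_comm (hK : IsFieldSubalgebra 3 K) {b : M3 F} (h : ∀ a ∈ K, b * a = a * b) :
    b ∈ K := by
  obtain ⟨a, ha, h1⟩ := exists_not_scalar hK
  obtain ⟨r, s, t, rfl⟩ := (reg_of_not_scalar hK ha h1).eq_poly (h a ha)
  exact K.add_mem (K.add_mem (K.smul_mem K.one_mem r) (K.smul_mem ha s))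
    (K.smul_mem (K.pow_mem ha 2) t)

/-- the normaliser induces a group of order dividing three -/
theorem pow_three_mem [Finite F] (hK : IsFieldSubalgebra 3 K) (hx : x ∈ subalgebraNormalizer K) :
    ((x ^ 3 : GL (Fin 3) F) : M3 F) ∈ K := by
  let _ : Field K := (isField_of_isFieldSubalgebra hK).toField
  have hs : Stab (subalgebraNormalizer K) K := stab_of_le_normalizer le_rfl
  have h3 : hs.equiv hx ^ 3 = 1 := by
    have : Finite K := Module.finite_of_finite F
    have := pow_card_eq_one' (x := hs.equiv hx)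
    rwa [IsGalois.card_aut_eq_finrank, hK.finrank_eq] at this
  refine mem_of_comm hK fun a ha => cj_eq_iff.1 ?_
  have := congrArg (fun e : K ≃ₐ[F] K => (e ⟨a, ha⟩ : M3 F)) h3
  rw [pow_three, cj_mul, cj_mul]
  rwa [pow_three] at this

theorem mem_of_coprime [Finite F] (hK : IsFieldSubalgebra 3 K) (hx : x ∈ subalgebraNormalizer K)
    {n : ℕ} (hn : x ^ n = 1) (h3 : Nat.Coprime 3 n) : (x : M3 F) ∈ K := by
  obtain ⟨k, hk⟩ := exists_pow_eq_self_of_coprime (x := x)
    (h3.coprime_dvd_right (orderOf_dvd_of_pow_eq_one hn))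
  rw [← hk, Units.val_pow_eq_pow_val]
  exact K.pow_mem (pow_three_mem hK hx) k

end Field

/-- no involutions -/
def Col3 (M : Subgroup (GL (Fin 3) F)) : Prop := ∀ x ∈ M, x ^ 2 = 1 → x = 1

theorem Col3.pull (h : Col3 M) (B : GL (Fin 3) F) : Col3 (pull B M) := fun x hx e => by
  have := h _ (mem_pull.1 hx) (by rw [conj_pow, e, mul_one, mul_inv_cancel])
  rwa [conj_eq_one_iff] at this

theorem col3_of_le [Finite F] {K : Subalgebra F (M3 F)} (hK : IsFieldSubalgebra 3 K)
    (h : M ≤ subalgebraNormalizer K) (hSL : M ≤ specialLinear (Fin 3) F) : Col3 M := by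
  intro x hx e
  have h1 := mem_of_coprime hK (h hx) e (by norm_num)
  have h2 : ((x : M3 F) - 1) * (x + 1) = 0 := by
    have : (x : M3 F) * x = 1 := by rw [← Units.val_mul, ← pow_two, e, Units.val_one]
    rw [sub_mul, mul_add, this]
    simp [add_comm]
  have h3 := congrArg det h2
  rw [det_mul, det_zero, mul_eq_zero] at h3
  rcases h3 with h3 | h3
  · exact Units.ext (by simpa using eq_smul_of_eig hK h1 (c := 1) (by simpa using h3))
  · have h4 := eq_smul_of_eig hK h1 (c := -1) (by simpa using h3)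
    have h5 := cube_eq_one_of_det (mem_specialLinear.1 (hSL hx)) h4
    refine Units.ext ?_
    rw [h4, show (-1 : F) = 1 by linear_combination h5, one_smul, Units.val_one]

/-! ### subfield subgroups -/

structure Col5 (F₀ : Subfield F) (M : Subgroup (GL (Fin 3) F)) : Prop where
  one : ∀ x ∈ M, ∃ c : F, c ≠ 0 ∧ c ^ 3 ∈ F₀ ∧ c * tr x ∈ F₀ ∧ c ^ 2 * tr x⁻¹ ∈ F₀
  comm : ∀ x ∈ M, ∀ y ∈ M, tr ⁅x, y⁆ ∈ F₀

theorem Col5.pull {F₀ : Subfield F} (h : Col5 F₀ M) (B : GL (Fin 3) F) : Col5 F₀ (pull B M) :=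
  ⟨fun x hx => by simpa only [tr_conj, tr_conj_inv] using h.one _ (mem_pull.1 hx),
    fun x hx y hy => by
      simpa only [conj_comm, tr_conj] using h.comm _ (mem_pull.1 hx) _ (mem_pull.1 hy)⟩

theorem pull_subfield (F₀ : Subfield F) (P : GL (Fin 3) F) :
    pull P (subfieldSubgroup F₀ P) = subfieldSubgroup F₀ 1 := by
  ext x
  rw [mem_pull, mem_subfieldSubgroup, mem_subfieldSubgroup, ← cj_coe, cj_inv_cj, inv_one, cj_one]

theorem mem_subfield_one {F₀ : Subfield F} :
    x ∈ subfieldSubgroup F₀ 1 ↔ ∃ c : Fˣ, Rat F₀ ((c : F) • (x : M3 F)) := by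
  rw [mem_subfieldSubgroup, inv_one, cj_one]

theorem col5_one (F₀ : Subfield F) : Col5 F₀ (subfieldSubgroup F₀ 1 ⊓ specialLinear (Fin 3) F) := by
  refine ⟨fun x hx => ?_, fun x hx y hy => ?_⟩
  · obtain ⟨c, hc⟩ := mem_subfield_one.1 hx.1
    have hd := mem_specialLinear.1 hx.2
    obtain ⟨z, hz⟩ := rat_iff_exists.1 hc
    refine ⟨c, c.ne_zero, ?_, by simpa using hc.trace_mem, ?_⟩
    · have := F₀.subtype.map_det z
      rw [RingHom.mapMatrix_apply, hz, det_smul, hd, mul_one, Fintype.card_fin] at this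
      exact this ▸ z.det.2
    · have := F₀.subtype.map_adjugate z
      rw [RingHom.mapMatrix_apply, RingHom.mapMatrix_apply, hz, adjugate_smul, adjugate_coe hd]
        at this
      have := (rat_iff_exists.2 ⟨_, this⟩).trace_mem
      rwa [trace_smul, Fintype.card_fin] at this
  · have key : ∀ x ∈ subfieldSubgroup F₀ (1 : GL (Fin 3) F), ∃ c : F, c ≠ 0 ∧
        Rat F₀ (c • (x : M3 F)) ∧ Rat F₀ (c⁻¹ • ((x⁻¹ : GL (Fin 3) F) : M3 F)) := fun x hx => by
      obtain ⟨c, hc⟩ := mem_subfield_one.1 hx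
      obtain ⟨d, hd⟩ := mem_subfield_one.1 (inv_mem hx)
      have h1 : (c : F) * d ∈ F₀ := by simpa [smul_smul, mul_comm] using hc.mul hd 0 0
      refine ⟨c, c.ne_zero, hc, ?_⟩
      have := hd.smul (F₀.inv_mem h1)
      rwa [smul_smul, mul_inv, inv_mul_cancel_right₀ d.ne_zero] at this
    obtain ⟨c, hc, h1, h2⟩ := key x hx.1
    obtain ⟨d, hd, h3, h4⟩ := key y hy.1
    have := (((h1.mul h3).mul h2).mul h4).trace_mem
    simp only [smul_mul_assoc, mul_smul_comm, smul_smul] at this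
    rwa [show d⁻¹ * (c⁻¹ * (d * c)) = 1 by field_simp, one_smul] at this

theorem Col5.mono {F₀ : Subfield F} (h : Col5 F₀ M') (hle : M ≤ M') : Col5 F₀ M :=
  ⟨fun x hx => h.one x (hle hx), fun x hx y hy => h.comm x (hle hx) y (hle hy)⟩

theorem le_pull_inv (h : pull B M ≤ M') : M ≤ pull B⁻¹ M' := fun x hx =>
  h (by rw [mem_pull]; simpa [mul_assoc] using hx)

theorem col5_of_le {F₀ : Subfield F} {P : GL (Fin 3) F} (h : M ≤ subfieldSubgroup F₀ P)
    (hSL : M ≤ specialLinear (Fin 3) F) : Col5 F₀ M :=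
  ((col5_one F₀).pull P⁻¹).mono (le_pull_inv (by
    rw [← pull_subfield F₀ P, ← pull_SL P, ← pull_inf]
    exact pull_mono P (le_inf h hSL)))

theorem Col5.real {F₀ : Subfield F} (h : Col5 F₀ M) (hx : x ∈ M) (e : tr x⁻¹ = tr x) :
    tr x ∈ F₀ := by
  obtain ⟨c, hc, h1, h2, h3⟩ := h.one x hx
  by_cases h0 : tr x = 0
  · exact h0 ▸ F₀.zero_mem
  rw [e] at h3
  have h4 : c ∈ F₀ := by
    have := F₀.div_mem h3 h2
    rwa [show c ^ 2 * tr x / (c * tr x) = c by field_simp] at this
  have := F₀.div_mem h2 h4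
  rwa [mul_div_cancel_left₀ _ hc] at this

/-! ### similarity groups -/

structure ColF (σ : F →+* F) (M : Subgroup (GL (Fin 3) F)) : Prop where
  one : ∀ x ∈ M, ∃ m : F, m ^ 3 = 1 ∧ tr x = m * σ (tr x⁻¹)
  comm : ∀ x ∈ M, ∀ y ∈ M, tr ⁅x, y⁆ = σ (tr ⁅x, y⁆⁻¹)
  cube : ∀ x ∈ M, tr (x ^ 3) = σ (tr (x ^ 3)⁻¹)

theorem ColF.pull {σ : F →+* F} (h : ColF σ M) (B : GL (Fin 3) F) : ColF σ (pull B M) :=
  ⟨fun x hx => by simpa only [tr_conj, tr_conj_inv] using h.one _ (mem_pull.1 hx),
    fun x hx y hy => by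
      simpa only [conj_comm, tr_conj, tr_conj_inv] using h.comm _ (mem_pull.1 hx) _ (mem_pull.1 hy),
    fun x hx => by simpa only [conj_pow, tr_conj, tr_conj_inv] using h.cube _ (mem_pull.1 hx)⟩

/-- `x` is a similarity with multiplier `c` -/
def Mult (f : V3 F → V3 F → F) (x : GL (Fin 3) F) (c : F) : Prop :=
  ∀ u v, f ((x : M3 F) *ᵥ u) ((x : M3 F) *ᵥ v) = c * f u v

theorem Mult.mul {f : V3 F → V3 F → F} {c d : F} (h : Mult f x c) (h' : Mult f y d) :
    Mult f (x * y) (c * d) := fun u v => by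
  rw [Units.val_mul, ← mulVec_mulVec, ← mulVec_mulVec, h, h', mul_assoc]

theorem Mult.inv {f : V3 F → V3 F → F} {c : F} (h : Mult f x c) (hc : c ≠ 0) :
    Mult f x⁻¹ c⁻¹ := fun u v => by
  rw [eq_inv_mul_iff_mul_eq₀ hc, ← h, mulVec_inv_mulVec, mulVec_inv_mulVec]

theorem Mult.gram {σ : F →+* F} {f : V3 F → V3 F → F} (hf : IsSesq0 σ f) {c : F}
    (h : Mult f x c) :
    (x : M3 F)ᵀ * gramMatrix f * (x : M3 F).map σ = c • gramMatrix f :=
  gform_ext (σ := σ) fun u v => by
    rw [← gform_mulVec, gform_smul, ← hf.eq_gform, ← hf.eq_gform, h]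

theorem Mult.tr {σ : F →+* F} {f : V3 F → V3 F → F} (hf : IsSesq0 σ f)
    (hnd : IsNondegenerateForm f) {c : F} (h : Mult f x c) : tr x = c * σ (tr x⁻¹) := by
  have h1 := h.gram hf
  have hG := hf.isUnit_det hnd
  set G := gramMatrix f
  have h2 : (x : M3 F).map σ * ((x⁻¹ : GL (Fin 3) F) : M3 F).map σ = 1 := by
    rw [← Matrix.map_mul, Units.mul_inv, Matrix.map_one _ (map_zero σ) (map_one σ)]
  have h3 : (x : M3 F)ᵀ = c • (G * ((x⁻¹ : GL (Fin 3) F) : M3 F).map σ * G⁻¹) := by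
    rw [← smul_mul_assoc, ← smul_mul_assoc, ← h1, mul_assoc _ ((x : M3 F).map σ), h2, mul_one,
      mul_nonsing_inv_cancel_right _ _ hG]
  have h4 := congrArg trace h3
  rw [trace_transpose, trace_smul, trace_mul_cycle, nonsing_inv_mul _ hG, one_mul] at h4
  rw [Mit.tr, h4, Mit.tr, AddMonoidHom.map_trace σ, smul_eq_mul]

theorem Mult.cube {σ : F →+* F} {f : V3 F → V3 F → F} (hf : IsSesq0 σ f)
    (hnd : IsNondegenerateForm f) {c : F} (h : Mult f x c) (hd : (x : M3 F).det = 1) :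
    c ^ 3 = 1 := by
  have h1 := congrArg det (h.gram hf)
  rw [det_mul, det_mul, det_transpose, ← RingHom.mapMatrix_apply, ← RingHom.map_det, hd, map_one,
    det_smul, Fintype.card_fin, one_mul, mul_one] at h1
  exact (mul_eq_right₀ (hf.isUnit_det hnd).ne_zero).1 h1.symm

theorem colF_of_le {σ : F →+* F} {f : V3 F → V3 F → F} (hf : IsSesq0 σ f)
    (hnd : IsNondegenerateForm f) (h : M ≤ similarityGroup f)
    (hSL : M ≤ specialLinear (Fin 3) F) : ColF σ M := by
  refine ⟨fun x hx => ?_, fun x hx y hy => ?_, fun x hx => ?_⟩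
  · obtain ⟨c, hc⟩ := h hx
    exact ⟨c, Mult.cube hf hnd hc (mem_specialLinear.1 (hSL hx)), Mult.tr hf hnd hc⟩
  · obtain ⟨c, hc⟩ := h hx
    obtain ⟨d, hd⟩ := h hy
    have := Mult.tr hf hnd (((Mult.mul hc hd).mul (Mult.inv hc c.ne_zero)).mul
      (Mult.inv hd d.ne_zero))
    rwa [show (c : F) * d * (c : F)⁻¹ * (d : F)⁻¹ = 1 by field_simp, one_mul] at this
  · obtain ⟨c, hc⟩ := h hx
    have := Mult.tr hf hnd ((Mult.mul hc hc).mul hc)
    rwa [← pow_three', ← pow_three', Mult.cube hf hnd hc (mem_specialLinear.1 (hSL hx)),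
      one_mul] at this

theorem colF_of_quad {Q : V3 F → F} (hQ : IsNondegenerateQuadraticForm Q)
    (h : M ≤ quadSimilarityGroup Q) (hSL : M ≤ specialLinear (Fin 3) F) : ColF (RingHom.id F) M :=
  colF_of_le (isSesq0_of_bilin hQ.polar_bilinear) hQ.nondegenerate (fun x hx => by
    obtain ⟨c, hc⟩ := h hx
    exact ⟨c, fun u v => by
      rw [QuadraticMap.polar, QuadraticMap.polar, ← mulVec_add, hc, hc, hc]; ring⟩) hSL

end CfsgLib.Mit.Gm
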