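import Mathlib
import Cfsg.Agent.Lib.Mit.GeoCol

/-! Subgroups of `SL₃(q)` containing a monomial group.  See `plans/MITCHELL.md`. -/

set_option autoImplicit false

namespace CfsgLib.Mit.Gm

open Matrix Cfsg Cfsg.Geo CfsgLib.Asch
open scoped MatrixGroups commutatorElement

variable {F : Type*} [Field F] {M M' : Subgroup (GL (Fin 3) F)} {x y : GL (Fin 3) F}

theorem entry_eq (h : x = y) (i j : Fin 3) : (x : M3 F) i j = (y : M3 F) i j := by rw [h]

/-- a diagonal matrix -/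
def dg (a b c : Fˣ) : GL (Fin 3) F where
  val := diagonal ![a, b, c]
  inv := diagonal ![(a⁻¹ : Fˣ), (b⁻¹ : Fˣ), (c⁻¹ : Fˣ)]
  val_inv := by
    rw [diagonal_mul_diagonal, ← diagonal_one]
    congr 1
    ext i
    fin_cases i <;> simp
  inv_val := by
    rw [diagonal_mul_diagonal, ← diagonal_one]
    congr 1
    ext i
    fin_cases i <;> simp

theorem coe_dg (a b c : Fˣ) : (dg a b c : M3 F) = !![(a : F), 0, 0; 0, b, 0; 0, 0, c] := by
  ext i j
  fin_cases i <;> fin_cases j <;> simp [dg]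

theorem dg_inv (a b c : Fˣ) : (dg a b c)⁻¹ = dg a⁻¹ b⁻¹ c⁻¹ := Units.ext rfl

theorem dg_mul (a b c a' b' c' : Fˣ) : dg a b c * dg a' b' c' = dg (a * a') (b * b') (c * c') :=
  Units.ext (by simp [coe_dg])

theorem tr_dg (a b c : Fˣ) : tr (dg a b c) = a + b + c := by
  simp [tr, coe_dg, trace_fin_three]

theorem det_dg (a b c : Fˣ) : (dg a b c : M3 F).det = a * b * c := by
  simp [coe_dg, det_fin_three]

theorem dg_inj {a b c a' b' c' : Fˣ} (h : dg a b c = dg a' b' c') : a = a' ∧ b = b' ∧ c = c' := by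
  have h1 := congrArg Units.val h
  rw [coe_dg, coe_dg] at h1
  exact ⟨Units.ext (congrFun (congrFun h1 0) 0), Units.ext (congrFun (congrFun h1 1) 1),
    Units.ext (congrFun (congrFun h1 2) 2)⟩

theorem dg_one : dg (1 : Fˣ) 1 1 = 1 := Units.ext (by simp [coe_dg, one_fin_three])

theorem dg_mem_monG (a b c : Fˣ) : dg a b c ∈ monG F :=
  mem_monG.2 ⟨1, fun _ _ h => diagonal_apply_ne _ h⟩

/-- the cyclic shift -/
def YS (F : Type*) [Field F] : M3 F := !![0, 0, 1; 1, 0, 0; 0, 1, 0]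

/-- the cyclic shift -/
noncomputable def yS (F : Type*) [Field F] : GL (Fin 3) F :=
  gl (YS F) (by simp [YS, det_fin_three])

/-- minus a transposition -/
noncomputable def tS (F : Type*) [Field F] : GL (Fin 3) F :=
  gl !![-1, 0, 0; 0, 0, -1; 0, -1, 0] (by simp [det_fin_three])

theorem coe_yS : (yS F : M3 F) = !![0, 0, 1; 1, 0, 0; 0, 1, 0] := rfl

theorem coe_tS : (tS F : M3 F) = !![-1, 0, 0; 0, 0, -1; 0, -1, 0] := rfl

theorem det_yS : (yS F : M3 F).det = 1 := by simp [coe_yS, det_fin_three]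

theorem det_tS : (tS F : M3 F).det = 1 := by simp [coe_tS, det_fin_three]

theorem tS_sq : tS F ^ 2 = 1 := Units.ext (by
  rw [pow_two, Units.val_mul, coe_tS, Units.val_one, one_fin_three]
  simp)

theorem tS_ne_one : tS F ≠ 1 := fun h => by
  simpa [coe_tS] using entry_eq h 1 1

theorem yS_mem_monG : yS F ∈ monG F := mem_monG.2 ⟨finRotate 3, fun k i h => by
  fin_cases k <;> fin_cases i <;> first | rfl | exact absurd rfl h⟩

theorem tS_mem_monG : tS F ∈ monG F := mem_monG.2 ⟨Equiv.swap 1 2, fun k i h => by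
  fin_cases k <;> fin_cases i <;> first | rfl | exact absurd rfl h⟩

theorem comm_dg_tS (s : Fˣ) : ⁅dg s⁻¹ s 1, tS F⁆ = dg 1 s s⁻¹ := comm_eq (by
  simp [coe_dg, coe_tS])

theorem comm_dg_yS (a b c : Fˣ) : ⁅dg a b c, yS F⁆ = dg (a * c⁻¹) (b * a⁻¹) (c * b⁻¹) :=
  comm_eq (by simp [coe_dg, coe_yS])

theorem comm_tS_yS : ⁅tS F, yS F⁆ = yS F := comm_eq (by simp [coe_tS, coe_yS])

/-- `M` contains the monomial matrices of determinant one with entries in `± A` -/
structure MonRow (A : Subgroup Fˣ) (M : Subgroup (GL (Fin 3) F)) : Prop where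
  dg_mem : ∀ a ∈ A, ∀ b ∈ A, ∀ c ∈ A, a * b * c = 1 → dg a b c ∈ M
  t_mem : tS F ∈ M
  y_mem : yS F ∈ M

namespace MonRow

variable {A : Subgroup Fˣ}

theorem mono (h : MonRow A M) (hle : M ≤ M') : MonRow A M' :=
  ⟨fun a ha b hb c hc e => hle (h.dg_mem a ha b hb c hc e), hle h.t_mem, hle h.y_mem⟩

theorem d1 (h : MonRow A M) {a : Fˣ} (ha : a ∈ A) : dg a⁻¹ a 1 ∈ M :=
  h.dg_mem _ (A.inv_mem ha) _ ha _ A.one_mem (by simp)

theorem env_top (h : MonRow A M) {a : Fˣ} (ha : a ∈ A) (h2 : a ^ 2 ≠ 1) : env M = ⊤ := by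
  have h1 : (a : F) ≠ 1 := fun e => h2 (by rw [show a = 1 from Units.ext e, one_pow])
  have h3 : (a : F) ^ 2 ≠ 1 := fun e => h2 (Units.ext e)
  have hd := coe_mem_env (h.d1 ha)
  have hy := coe_mem_env h.y_mem
  have ha0 := a.ne_zero
  have hE : (single 2 2 1 : M3 F) ∈ env M := by
    have := (env M).smul_mem ((env M).mul_mem
      ((env M).sub_mem hd ((env M).smul_mem (env M).one_mem (a : F)))
      ((env M).sub_mem hd ((env M).smul_mem (env M).one_mem (a : F)⁻¹)))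
      ((1 - (a : F)) * (1 - (a : F)⁻¹))⁻¹
    convert this using 1
    have h4 : 1 - (a : F) ≠ 0 := sub_ne_zero.2 h1.symm
    have h5 : 1 - (a : F)⁻¹ ≠ 0 := sub_ne_zero.2 (inv_ne_one.2 h1).symm
    ext i j
    fin_cases i <;> fin_cases j <;> simp [coe_dg, one_fin_three, Matrix.single_apply]
    field_simp
  have key : ∀ i j : Fin 3, (single i j 1 : M3 F) =
      (yS F : M3 F) ^ (i.val + 1) * single 2 2 1 * (yS F : M3 F) ^ (2 - j.val) := fun i j => by
    rw [show (single 2 2 1 : M3 F) = !![0, 0, 0; 0, 0, 0; 0, 0, 1] by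
      ext k l; fin_cases k <;> fin_cases l <;> simp]
    ext k l
    fin_cases i <;> fin_cases j <;> simp [coe_yS, pow_succ] <;> fin_cases k <;> fin_cases l <;>
      simp
  rw [eq_top_iff]
  intro U _
  rw [matrix_eq_sum_single U]
  refine sum_mem fun i _ => sum_mem fun j _ => ?_
  rw [← mul_one (U i j), ← smul_eq_mul, ← smul_single, key]
  exact (env M).smul_mem (mul_mem (mul_mem (pow_mem hy _) hE) (pow_mem hy _)) _

theorem not_col3 (h : MonRow A M) : ¬ Col3 M := fun h3 => tS_ne_one (h3 _ h.t_mem tS_sq)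

theorem mem_of_col5 (h : MonRow A M) {F₀ : Subfield F} (h5 : Col5 F₀ M) {a : Fˣ} (ha : a ∈ A) :
    (a : F) ∈ F₀ := by
  have h1 := h5.comm _ (h.d1 ha) _ h.t_mem
  have h2 := h5.comm _ (h.d1 ha) _ h.y_mem
  rw [comm_dg_tS, tr_dg] at h1
  rw [comm_dg_yS, tr_dg] at h2
  simp only [Units.val_one, Units.val_mul, Units.val_inv_eq_inv_val, inv_one, inv_inv, mul_one,
    one_mul] at h1 h2
  by_cases e : (a : F) = 1
  · exact e ▸ F₀.one_mem
  have ha0 := a.ne_zero
  set s := 1 + (a : F) + (a : F)⁻¹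
  have h3 : s - 3 ≠ 0 := fun e' => e (by
    have : ((a : F) - 1) ^ 2 = a * (s - 3) := by simp only [s]; field_simp; ring
    rw [e', mul_zero] at this
    exact sub_eq_zero.1 (pow_eq_zero_iff two_ne_zero |>.1 this))
  have h4 : (a : F) = ((a : F)⁻¹ + a * a + (a : F)⁻¹ - 2 * s + 3) / (s - 3) := by
    rw [eq_div_iff h3]
    simp only [s]
    field_simp
    ring
  rw [h4]
  exact F₀.div_mem (F₀.add_mem (F₀.sub_mem h2 (F₀.mul_mem (natCast_mem F₀ 2) h1))
    (natCast_mem F₀ 3)) (F₀.sub_mem h1 (natCast_mem F₀ 3))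

theorem map_of_colF (h : MonRow A M) {σ : F →+* F} (hF : ColF σ M) {a : Fˣ} (ha : a ∈ A) :
    σ a = (a : F)⁻¹ := by
  have h1 := hF.comm _ (h.d1 ha) _ h.t_mem
  have h2 := hF.comm _ (h.d1 (A.inv_mem ha)) _ h.y_mem
  rw [comm_dg_tS, dg_inv, tr_dg, tr_dg] at h1
  rw [comm_dg_yS, dg_inv, tr_dg, tr_dg] at h2
  simp only [Units.val_one, Units.val_mul, Units.val_inv_eq_inv_val, inv_one, inv_inv, mul_one,
    one_mul, map_add, map_mul, map_inv₀, map_one, mul_inv] at h1 h2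
  by_cases e : (a : F) = 1
  · simp [e]
  have ha0 := mul_inv_cancel₀ a.ne_zero
  have hb0 := mul_inv_cancel₀ ((map_ne_zero σ).2 a.ne_zero)
  generalize σ a = b at *
  generalize (a : F) = a at *
  have h3 : (b - a) * (b - a⁻¹) = 0 := by linear_combination (-b) * h1 + ha0 - hb0
  rcases mul_eq_zero.1 h3 with h4 | h4
  · obtain rfl : b = a := sub_eq_zero.1 h4
    have h5 : (b - 1) ^ 3 * (b + 1) = 0 := by
      linear_combination (-b ^ 2) * h2 + (b * b⁻¹ + 1 - 2 * b) * ha0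
    rcases mul_eq_zero.1 h5 with h6 | h6
    · exact absurd (sub_eq_zero.1 (pow_eq_zero_iff three_ne_zero |>.1 h6)) e
    · linear_combination (1 - b⁻¹) * h6 + ha0
  · linear_combination h4

theorem sq_dvd_card [Finite F] (h : MonRow A M) : Nat.card A ^ 2 ∣ Nat.card M := by
  let φ : A × A →* M := MonoidHom.mk' (fun a => ⟨dg a.1 a.2 (a.1 * a.2)⁻¹,
    h.dg_mem _ a.1.2 _ a.2.2 _ (A.inv_mem (A.mul_mem a.1.2 a.2.2)) (mul_inv_cancel _)⟩)
    fun a b => Subtype.ext (by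
      simp only [Subgroup.coe_mul, dg_mul, Prod.fst_mul, Prod.snd_mul]
      congr 1
      simp only [mul_inv]
      ac_rfl)
  have := Subgroup.card_dvd_of_injective φ fun a b e =>
    have := dg_inj (congrArg Subtype.val e)
    Prod.ext (Subtype.ext this.1) (Subtype.ext this.2.1)
  rwa [Nat.card_prod, ← pow_two] at this

/-- a monomial action of `M` is impossible when `tS` lies in a subgroup without a quotient of
order two -/
theorem not_col2 (h : MonRow A M) {a : Fˣ} (ha : a ∈ A) (h1 : a ≠ 1)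
    (ht : ∀ s : M →* ℤˣ, s ⟨_, h.t_mem⟩ = 1) : ¬ Col2 M := by
  rintro ⟨π, h2, -, -⟩
  have h3 : π ⟨_, h.t_mem⟩ = 1 := by
    have e1 := ht (Equiv.Perm.sign.comp π)
    have e2 : π ⟨_, h.t_mem⟩ ^ 2 = 1 := by
      rw [← map_pow, show (⟨_, h.t_mem⟩ : M) ^ 2 = 1 from Subtype.ext tS_sq, map_one]
    rw [MonoidHom.comp_apply] at e1
    generalize π ⟨_, h.t_mem⟩ = u at e1 e2
    revert u
    decide
  have h4 : (⟨_, h.y_mem⟩ : M) = ⁅(⟨_, h.t_mem⟩ : M), ⟨_, h.y_mem⟩⁆ := Subtype.ext comm_tS_yS.symm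
  have := h2 ⁅(⟨_, h.d1 ha⟩ : M), ⟨_, h.t_mem⟩⁆ ⟨_, h.y_mem⟩
    (by rw [map_commutatorElement, h3, commutatorElement_one_right])
    (by rw [h4, map_commutatorElement, h3, commutatorElement_one_left])
  have h5 : dg 1 a a⁻¹ * yS F = yS F * dg 1 a a⁻¹ := comm_dg_tS a ▸ congrArg Subtype.val this
  apply h1
  simpa [coe_dg, coe_yS] using entry_eq h5 1 0

theorem not_col2_of_sq (h : MonRow A M) {a : Fˣ} (ha : a ∈ A) (h1 : a ≠ 1) (hx : x ∈ M)
    (e : x ^ 2 = tS F) : ¬ Col2 M :=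
  h.not_col2 ha h1 fun s => by
    rw [show (⟨_, h.t_mem⟩ : M) = ⟨x, hx⟩ ^ 2 from Subtype.ext e.symm, map_pow, Int.units_sq]

theorem not_col2_of_perfect (h : MonRow A M) {a : Fˣ} (ha : a ∈ A) (h1 : a ≠ 1)
    {P : Subgroup (GL (Fin 3) F)} (hP : ⁅P, P⁆ = P) (hle : P ≤ M) (ht : tS F ∈ P) : ¬ Col2 M :=
  h.not_col2 ha h1 fun s => by
    have : P ≤ s.ker.map M.subtype := by
      rw [← hP, Subgroup.commutator_le]
      intro a ha b hb
      refine ⟨⁅(⟨a, hle ha⟩ : M), ⟨b, hle hb⟩⁆, ?_, rfl⟩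
      rw [SetLike.mem_coe, MonoidHom.mem_ker, map_commutatorElement,
        commutatorElement_eq_one_iff_mul_comm, mul_comm]
    obtain ⟨u, hu, e⟩ := this ht
    exact (Subtype.ext e : u = ⟨_, h.t_mem⟩) ▸ hu

end MonRow

theorem monRow_monG : MonRow ⊤ (monG F ⊓ specialLinear (Fin 3) F) :=
  ⟨fun a _ b _ c _ e => ⟨dg_mem_monG a b c, mem_specialLinear.2 (by
      rw [det_dg, ← Units.val_mul, ← Units.val_mul, e, Units.val_one])⟩,
    ⟨tS_mem_monG, mem_specialLinear.2 det_tS⟩, ⟨yS_mem_monG, mem_specialLinear.2 det_yS⟩⟩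

end CfsgLib.Mit.Gm
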