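import Mathlib
import Cfsg.Agent.Lib.Mit.GeoMon

/-! The extraspecial group of order 27 in `SL₃(q)` and its normaliser.  See `plans/MITCHELL.md`. -/

set_option autoImplicit false

namespace CfsgLib.Mit.Gm

open Matrix Cfsg Cfsg.Geo CfsgLib.Asch
open scoped MatrixGroups commutatorElement

variable {F : Type*} [Field F] {M M' : Subgroup (GL (Fin 3) F)} {g h x y : GL (Fin 3) F} {ω : F}

/-- `ω` is a primitive cube root of unity -/
structure Om (ω : F) : Prop where
  eq : ω ^ 2 + ω + 1 = 0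
  three : (3 : F) ≠ 0

namespace Om

variable (hω : Om ω)
include hω

theorem cube : ω ^ 3 = 1 := by linear_combination (ω - 1) * hω.eq

theorem ne_one : ω ≠ 1 := fun e => hω.three (by
  have := hω.eq
  rw [e] at this
  linear_combination this)

theorem ne_zero : ω ≠ 0 := fun e => by simpa [e] using hω.eq

theorem sq_ne_one : ω ^ 2 ≠ 1 := fun e => hω.ne_one (by
  linear_combination hω.cube - ω * e)

theorem sq_ne : ω ^ 2 ≠ ω := fun e => hω.ne_one (mul_left_cancel₀ hω.ne_zero (by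
  linear_combination e))

theorem cases {s : F} (hs : s ^ 3 = 1) : s = 1 ∨ s = ω ∨ s = ω ^ 2 := by
  have : (s - 1) * ((s - ω) * (s - ω ^ 2)) = 0 := by
    linear_combination hs + (-s ^ 2 + s * ω - ω + 1) * hω.eq
  simpa only [mul_eq_zero, sub_eq_zero] using this

theorem exists_pow {s : F} (hs : s ^ 3 = 1) : ∃ i : ℕ, s = ω ^ i := by
  rcases hω.cases hs with h | h | h
  exacts [⟨0, by rw [h, pow_zero]⟩, ⟨1, by rw [h, pow_one]⟩, ⟨2, h⟩]

theorem pow_inj {m n : ℕ} (h : ω ^ m = ω ^ n) : (m : ZMod 3) = n := by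
  have : Fact (Nat.Prime 3) := ⟨Nat.prime_three⟩
  have hp : IsPrimitiveRoot ω 3 := orderOf_eq_prime hω.cube hω.ne_one ▸ IsPrimitiveRoot.orderOf ω
  rw [pow_eq_pow_mod m hω.cube, pow_eq_pow_mod n hω.cube] at h
  exact (ZMod.natCast_eq_natCast_iff' m n 3).2
    (hp.pow_inj (Nat.mod_lt _ (by norm_num)) (Nat.mod_lt _ (by norm_num)) h)

end Om

theorem exists_om [Fintype F] (h : 3 ∣ Fintype.card F - 1) : ∃ ω : F, Om ω := by
  classical
  have : Fact (Nat.Prime 3) := ⟨Nat.prime_three⟩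
  obtain ⟨u, hu⟩ := exists_prime_orderOf_dvd_card (G := Fˣ) 3 (by rwa [Fintype.card_units])
  have h1 : (u : F) ^ 3 = 1 := by
    rw [← Units.val_pow_eq_pow_val, ← hu, pow_orderOf_eq_one, Units.val_one]
  have h2 : (u : F) - 1 ≠ 0 := fun e => by
    rw [show u = 1 from Units.ext (sub_eq_zero.1 e), orderOf_one] at hu
    omega
  refine ⟨u, mul_left_cancel₀ h2 (by linear_combination h1), fun h3 => h2 ?_⟩
  exact pow_eq_zero_iff three_ne_zero |>.1
    (by linear_combination h1 + ((u : F) - u ^ 2) * h3 : ((u : F) - 1) ^ 3 = 0)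

/-- the diagonal generator -/
def XS (ω : F) : M3 F := !![1, 0, 0; 0, ω, 0; 0, 0, ω ^ 2]

theorem YS_cube : YS F ^ 3 = 1 := by
  simp [YS, pow_succ, one_fin_three]

theorem det_YS : (YS F).det = 1 := det_yS

theorem XS_pow (ω : F) (n : ℕ) : XS ω ^ n = !![1, 0, 0; 0, ω ^ n, 0; 0, 0, (ω ^ n) ^ 2] := by
  induction n with
  | zero => simp [one_fin_three]
  | succ n ih =>
    rw [pow_succ, ih]
    simp [XS, pow_succ]
    ring

theorem Om.XS_cube (hω : Om ω) : XS ω ^ 3 = 1 := by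
  rw [XS_pow, hω.cube, one_fin_three, one_pow]

theorem Om.det_XS (hω : Om ω) : (XS ω).det = 1 := by
  simp [XS, det_fin_three]
  linear_combination hω.cube

theorem Om.XY (hω : Om ω) : XS ω * YS F = ω • (YS F * XS ω) := by
  ext i j
  fin_cases i <;> fin_cases j <;> simp [XS, YS]
  · linear_combination -hω.cube
  · ring

theorem Om.YX_pow (hω : Om ω) (i j : ℕ) :
    YS F ^ j * XS ω ^ i = ω ^ (2 * (i * j)) • (XS ω ^ i * YS F ^ j) := by
  have h0 : YS F * XS ω = ω ^ 2 • (XS ω * YS F) := by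
    rw [hω.XY, smul_smul, ← pow_succ, hω.cube, one_smul]
  have h1 : ∀ i : ℕ, YS F * XS ω ^ i = ω ^ (2 * i) • (XS ω ^ i * YS F) := fun i => by
    induction i with
    | zero => simp
    | succ i ih =>
      rw [pow_succ, ← mul_assoc, ih, smul_mul_assoc, mul_assoc, h0, mul_smul_comm, smul_smul,
        ← mul_assoc, ← pow_add, mul_add, mul_one]
  induction j with
  | zero => simp
  | succ j ih =>
    rw [pow_succ', mul_assoc, ih, mul_smul_comm, ← mul_assoc (YS F), h1, smul_mul_assoc, smul_smul,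
      mul_assoc (XS ω ^ i), ← pow_add]
    congr 2
    ring

/-- representatives of `R` modulo its centre -/
def EE (ω : F) (a b : ZMod 3) : M3 F := XS ω ^ a.val * YS F ^ b.val

theorem EE_zero : EE ω 0 0 = 1 := by simp [EE]

theorem EE_X : EE ω 1 0 = XS ω := by simp [EE, show (1 : ZMod 3).val = 1 from rfl]

theorem EE_Y : EE ω 0 1 = YS F := by simp [EE, show (1 : ZMod 3).val = 1 from rfl]

theorem Om.det_EE (hω : Om ω) (a b : ZMod 3) : (EE ω a b).det = 1 := by
  rw [EE, det_mul, det_pow, det_pow, hω.det_XS, det_YS, one_pow, one_pow, one_mul]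

theorem Om.EE_mul (hω : Om ω) (a b c d : ZMod 3) :
    EE ω a b * EE ω c d = ω ^ (2 * (c.val * b.val)) • EE ω (a + c) (b + d) := by
  rw [EE, EE, EE, ZMod.val_add, ZMod.val_add, ← pow_eq_pow_mod _ hω.XS_cube,
    ← pow_eq_pow_mod _ YS_cube, mul_assoc, ← mul_assoc (YS F ^ _), hω.YX_pow, smul_mul_assoc,
    mul_smul_comm, pow_add, pow_add]
  simp only [mul_assoc]

theorem Om.trace_EE (hω : Om ω) {a b : ZMod 3} (h : ¬ (a = 0 ∧ b = 0)) : (EE ω a b).trace = 0 := by
  have h3 : ∀ a : ZMod 3, a = 0 ∨ a = 1 ∨ a = 2 := by decide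
  have v1 : (1 : ZMod 3).val = 1 := rfl
  have v2 : (2 : ZMod 3).val = 2 := rfl
  rcases h3 b with rfl | rfl | rfl
  · rcases h3 a with rfl | rfl | rfl
    · exact absurd ⟨rfl, rfl⟩ h
    · simp [EE, v1, XS, trace_fin_three]
      linear_combination hω.eq
    · simp [EE, v2, XS_pow, trace_fin_three]
      linear_combination hω.eq + ω * hω.cube
  · simp [EE, v1, XS_pow, YS, trace_fin_three]
  · simp [EE, v2, XS_pow, YS, pow_two, trace_fin_three]

/-- `U` is a multiple of `X ^ a * Y ^ b` -/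
def Pr (ω : F) (U : M3 F) (a b : ZMod 3) : Prop := ∃ s : F, U = s • EE ω a b

section Pr

variable {U V : M3 F} {a b c d : ZMod 3}

theorem Pr.smul (h : Pr ω U a b) (s : F) : Pr ω (s • U) a b := by
  obtain ⟨t, rfl⟩ := h
  exact ⟨s * t, smul_smul _ _ _⟩

theorem Pr.congr (h : Pr ω U a b) (e : a = c) (e' : b = d) : Pr ω U c d := e ▸ e' ▸ h

theorem pr_EE (a b : ZMod 3) : Pr ω (EE ω a b) a b := ⟨1, (one_smul _ _).symm⟩

theorem pr_one : Pr ω 1 0 0 := EE_zero (ω := ω) ▸ pr_EE 0 0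

theorem pr_X : Pr ω (XS ω) 1 0 := EE_X (ω := ω) ▸ pr_EE 1 0

theorem pr_Y : Pr ω (YS F) 0 1 := EE_Y (ω := ω) ▸ pr_EE 0 1

theorem Pr.mul (hω : Om ω) (h : Pr ω U a b) (h' : Pr ω V c d) : Pr ω (U * V) (a + c) (b + d) := by
  obtain ⟨s, rfl⟩ := h
  obtain ⟨t, rfl⟩ := h'
  rw [smul_mul_assoc, mul_smul_comm, hω.EE_mul]
  exact (((pr_EE _ _).smul _).smul _).smul _

theorem Pr.pow (hω : Om ω) (h : Pr ω U a b) (n : ℕ) : Pr ω (U ^ n) (n * a) (n * b) := by
  induction n with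
  | zero => simpa using pr_one
  | succ n ih => rw [pow_succ]; exact (ih.mul hω h).congr (by push_cast; ring) (by push_cast; ring)

theorem Pr.unique (hω : Om ω) (hU : U.det ≠ 0) (h : Pr ω U a b) (h' : Pr ω U c d) :
    a = c ∧ b = d := by
  by_contra hne
  obtain ⟨s, hs⟩ := h.mul hω (pr_EE (-c) (-d))
  obtain ⟨t, ht⟩ := h'.mul hω (pr_EE (-c) (-d))
  rw [add_neg_cancel, add_neg_cancel, EE_zero] at ht
  have h1 := congrArg trace (hs.symm.trans ht)
  rw [trace_smul, trace_smul, hω.trace_EE (by simpa [add_neg_eq_zero] using hne), smul_zero,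
    trace_one, Fintype.card_fin, smul_eq_mul, eq_comm, mul_eq_zero] at h1
  have h2 := congrArg det ht
  rw [det_mul, hω.det_EE, h1.resolve_right (by exact_mod_cast hω.three), zero_smul, det_zero,
    mul_one] at h2
  exact hU h2

end Pr

/-- the extraspecial group of order 27 -/
def stdR (hω : Om ω) : Subgroup (GL (Fin 3) F) where
  carrier := {g | (g : M3 F).det = 1 ∧ ∃ a b, Pr ω g a b}
  mul_mem' := by
    rintro g h ⟨h1, a, b, h2⟩ ⟨h3, c, d, h4⟩
    exact ⟨by rw [Units.val_mul, det_mul, h1, h3, one_mul], _, _, h2.mul hω h4⟩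
  one_mem' := ⟨det_one, 0, 0, pr_one⟩
  inv_mem' := by
    rintro g ⟨h1, a, b, h2⟩
    refine ⟨mem_specialLinear.1 (inv_mem (mem_specialLinear.2 h1)), -a, -b, ?_⟩
    obtain ⟨s, hs⟩ := h2.mul hω (pr_EE (-a) (-b))
    rw [add_neg_cancel, add_neg_cancel, EE_zero] at hs
    have hs0 : s ≠ 0 := by
      rintro rfl
      have := congrArg det hs
      rw [det_mul, h1, hω.det_EE, zero_smul, det_zero, one_mul] at this
      exact one_ne_zero this
    refine ⟨s⁻¹, ?_⟩
    rw [← Units.inv_mul_cancel_left g (EE ω (-a) (-b)), hs, mul_smul_comm, smul_smul,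
      inv_mul_cancel₀ hs0, mul_one, one_smul]

theorem mem_stdR {hω : Om ω} : g ∈ stdR hω ↔ (g : M3 F).det = 1 ∧ ∃ a b, Pr ω g a b := Iff.rfl

/-- the diagonal generator -/
noncomputable def xS (hω : Om ω) : GL (Fin 3) F := gl (XS ω) hω.det_XS

theorem xS_mem (hω : Om ω) : xS hω ∈ stdR hω := ⟨hω.det_XS, 1, 0, pr_X⟩

theorem yS_mem (hω : Om ω) : yS F ∈ stdR hω := ⟨det_YS, 0, 1, pr_Y⟩

theorem pow_nine (hω : Om ω) (hg : g ∈ stdR hω) : g ^ 9 = 1 := by
  obtain ⟨h1, a, b, h2⟩ := hg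
  have k : ∀ a : ZMod 3, ((3 : ℕ) : ZMod 3) * a = 0 := by decide
  obtain ⟨s, hs⟩ := (h2.pow hω 3).congr (k a) (k b)
  rw [EE_zero] at hs
  have h3 := congrArg det hs
  rw [det_pow, h1, one_pow, det_smul, det_one, mul_one, Fintype.card_fin] at h3
  refine Units.ext ?_
  rw [Units.val_pow_eq_pow_val, show 9 = 3 * 3 from rfl, pow_mul, hs, smul_pow, ← h3, one_pow,
    one_smul, Units.val_one]

/-- a subgroup containing `ω`, a multiple of `X` and `Y` contains `R` -/
theorem stdR_le (hω : Om ω) {l : F} (hx : x ∈ M) (e : (x : M3 F) = l • XS ω) (hl : l ^ 3 = 1)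
    (hy : yS F ∈ M) : stdR hω ≤ M := by
  have hw : sc (Fin 3) (Units.mk0 ω hω.ne_zero) ∈ M := by
    rw [← comm_eq (x := x) (y := yS F) (z := sc (Fin 3) (Units.mk0 ω hω.ne_zero)) (by
      rw [e, coe_sc, smul_mul_assoc, smul_mul_assoc, one_mul, mul_smul_comm, smul_comm]
      exact congrArg _ hω.XY)]
    exact M.mul_mem (M.mul_mem (M.mul_mem hx hy) (M.inv_mem hx)) (M.inv_mem hy)
  rintro g ⟨h1, a, b, s, hs⟩
  have h2 : s ^ 3 = 1 := by
    rwa [hs, det_smul, hω.det_EE, mul_one, Fintype.card_fin] at h1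
  have hl0 : l ≠ 0 := fun e => by simp [e] at hl
  obtain ⟨i, hi⟩ := hω.exists_pow (s := s * (l ^ a.val)⁻¹) (by
    rw [mul_pow, h2, inv_pow, ← pow_mul, mul_comm _ 3, pow_mul, hl, one_pow, inv_one, one_mul])
  have : g = sc (Fin 3) (Units.mk0 ω hω.ne_zero) ^ i * (x ^ a.val * yS F ^ b.val) := Units.ext (by
    simp only [Units.val_mul, Units.val_pow_eq_pow_val, coe_sc, e, hs, smul_pow, one_pow,
      smul_mul_assoc, one_mul, Units.val_mk0, smul_smul, ← hi]
    rw [inv_mul_cancel_right₀ (pow_ne_zero _ hl0)]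
    rfl)
  exact this ▸ M.mul_mem (M.pow_mem hw _) (M.mul_mem (M.pow_mem hx _) (M.pow_mem hy _))

theorem Om.diag_of_comm (hω : Om ω) {U : M3 F} (h : U * XS ω = XS ω * U) :
    U = !![U 0 0, 0, 0; 0, U 1 1, 0; 0, 0, U 2 2] := by
  have h1 := sub_ne_zero.2 hω.ne_one
  have h2 := sub_ne_zero.2 hω.sq_ne_one
  have h3 := sub_ne_zero.2 hω.sq_ne
  have e := fun i j => congrFun (congrFun h i) j
  have e01 := e 0 1
  have e02 := e 0 2
  have e10 := e 1 0
  have e12 := e 1 2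
  have e20 := e 2 0
  have e21 := e 2 1
  simp only [XS, Matrix.mul_apply, Fin.sum_univ_three, of_apply, cons_val', cons_val_zero,
    cons_val_one, cons_val_two, cons_val_fin_one, head_cons, tail_cons, head_fin_const, mul_zero,
    zero_mul, add_zero, zero_add, mul_one, one_mul, empty_val', Nat.succ_eq_add_one,
    Nat.reduceAdd] at e01 e02 e10 e12 e20 e21
  ext i j
  fin_cases i <;> fin_cases j <;> simp
  · exact mul_left_cancel₀ h1 (by linear_combination e01)
  · exact mul_left_cancel₀ h2 (by linear_combination e02)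
  · exact mul_left_cancel₀ h1 (by linear_combination -e10)
  · exact mul_left_cancel₀ h3 (by linear_combination e12)
  · exact mul_left_cancel₀ h2 (by linear_combination -e20)
  · exact mul_left_cancel₀ h3 (by linear_combination -e21)

theorem Om.exists_diag (hω : Om ω) {U : M3 F} {s : F} (hs : s ^ 3 = 1)
    (h : U * XS ω = s • (XS ω * U)) :
    ∃ (k : ℕ) (a b c : F), YS F ^ k * U = !![a, 0, 0; 0, b, 0; 0, 0, c] := by
  obtain ⟨k, rfl⟩ := hω.exists_pow hs
  refine ⟨k, _, _, _, hω.diag_of_comm ?_⟩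
  have := hω.YX_pow 1 k
  rw [pow_one] at this
  rw [mul_assoc, h, mul_smul_comm, ← mul_assoc, this, smul_mul_assoc, smul_smul, ← pow_add,
    show k + 2 * (1 * k) = 3 * k by ring, pow_mul, hω.cube, one_pow, one_smul, mul_assoc]

theorem Om.pr_of_diag (hω : Om ω) {U : M3 F} {k : ℕ} {a s : F} (hs : s ^ 3 = 1)
    (h : YS F ^ k * U = !![a, 0, 0; 0, s * a, 0; 0, 0, s ^ 2 * a]) : ∃ a b, Pr ω U a b := by
  obtain ⟨j, rfl⟩ := hω.exists_pow hs
  have : U = YS F ^ (2 * k) * (a • XS ω ^ j) := by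
    rw [show a • XS ω ^ j = YS F ^ k * U by rw [h, XS_pow]; simp [mul_comm], ← mul_assoc,
      ← pow_add, show 2 * k + k = 3 * k by ring, pow_mul, YS_cube, one_pow, one_mul]
  exact ⟨_, _, this ▸ (pr_Y.pow hω _).mul hω ((pr_X.pow hω j).smul a)⟩

/-! ### the action on `R` modulo its centre -/

/-- `g` acts on `R` modulo its centre as the matrix `A` -/
def Act (ω : F) (g : GL (Fin 3) F) (A : Matrix (Fin 2) (Fin 2) (ZMod 3)) : Prop :=
  ∀ U a b, Pr ω U a b → Pr ω (cj g U) (A 0 0 * a + A 0 1 * b) (A 1 0 * a + A 1 1 * b)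

section Act

variable {A A' : Matrix (Fin 2) (Fin 2) (ZMod 3)}

theorem act_one : Act ω 1 1 := fun U a b h => by simpa using h

theorem Act.mul (h1 : Act ω g A) (h2 : Act ω h A') : Act ω (g * h) (A * A') := fun U a b hU => by
  rw [cj_mul]
  refine (h1 _ _ _ (h2 _ _ _ hU)).congr ?_ ?_ <;>
    simp only [Matrix.mul_apply, Fin.sum_univ_two] <;> ring

theorem Act.pow (h1 : Act ω g A) (n : ℕ) : Act ω (g ^ n) (A ^ n) := by
  induction n with
  | zero => simpa using act_one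
  | succ n ih => rw [pow_succ, pow_succ]; exact ih.mul h1

theorem act_of (hω : Om ω) {a b c d : ZMod 3} (hX : Pr ω (cj g (XS ω)) a c)
    (hY : Pr ω (cj g (YS F)) b d) : Act ω g !![a, b; c, d] := by
  rintro _ i j ⟨s, rfl⟩
  rw [map_smul, EE, map_mul, map_pow, map_pow]
  refine (((hX.pow hω _).mul hω (hY.pow hω _)).smul s).congr ?_ ?_ <;> simp [mul_comm]

theorem act_of' (hω : Om ω) {a b c d : ZMod 3} {s t : F}
    (hX : (g : M3 F) * XS ω = s • EE ω a c * g) (hY : (g : M3 F) * YS F = t • EE ω b d * g) :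
    Act ω g !![a, b; c, d] :=
  act_of hω ⟨s, cj_eq_iff.2 hX⟩ ⟨t, cj_eq_iff.2 hY⟩

theorem Act.X (h : Act ω g A) : Pr ω (cj g (XS ω)) (A 0 0) (A 1 0) := by simpa using h _ _ _ pr_X

theorem Act.Y (h : Act ω g A) : Pr ω (cj g (YS F)) (A 0 1) (A 1 1) := by simpa using h _ _ _ pr_Y

theorem Act.unique (hω : Om ω) (h1 : Act ω g A) (h2 : Act ω g A') : A = A' := by
  have e1 := h1.X.unique hω (by rw [det_cj, hω.det_XS]; exact one_ne_zero) h2.X
  have e2 := h1.Y.unique hω (by rw [det_cj, det_YS]; exact one_ne_zero) h2.Y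
  rw [eta_fin_two A, eta_fin_two A', e1.1, e1.2, e2.1, e2.2]

theorem Act.det (hω : Om ω) (h : Act ω g A) : A.det = 1 := by
  obtain ⟨s, hs⟩ := h.X
  obtain ⟨t, ht⟩ := h.Y
  have h1 := congrArg (cj g) hω.XY
  have h2 : cj g (XS ω * YS F) ≠ 0 := fun e => by
    have := congrArg Matrix.det e
    rw [det_cj, det_mul, hω.det_XS, det_YS, det_zero, one_mul] at this
    exact one_ne_zero this
  rw [map_smul, map_mul, map_mul, hs, ht] at h1
  rw [map_mul, hs, ht] at h2
  simp only [smul_mul_assoc, mul_smul_comm, hω.EE_mul, smul_smul] at h1 h2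
  rw [add_comm (A 0 1), add_comm (A 1 1)] at h1
  have h3 := smul_left_injective F (right_ne_zero_of_smul h2) h1
  have h4 := left_ne_zero_of_smul h2
  have h5 : ω ^ (2 * ((A 0 1).val * (A 1 0).val)) = ω ^ (2 * ((A 0 0).val * (A 1 1).val) + 1) := by
    apply mul_left_cancel₀ (left_ne_zero_of_mul h4)
    apply mul_left_cancel₀ (left_ne_zero_of_mul (right_ne_zero_of_mul h4))
    rw [pow_succ]
    linear_combination h3
  have h6 := hω.pow_inj h5
  simp only [Nat.cast_add, Nat.cast_mul, ZMod.natCast_zmod_val, Nat.cast_one, Nat.cast_ofNat] at h6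
  rw [det_fin_two]
  revert h6
  generalize A 0 0 = a, A 0 1 = b, A 1 0 = c, A 1 1 = d
  revert a b c d
  decide

theorem exists_act (hω : Om ω) (hg : g ∈ subgroupNormalizer (stdR hω)) : ∃ A, Act ω g A := by
  obtain ⟨-, a, c, h1⟩ := (Subgroup.mem_normalizer_iff.1 hg _).1 (xS_mem hω)
  obtain ⟨-, b, d, h2⟩ := (Subgroup.mem_normalizer_iff.1 hg _).1 (yS_mem hω)
  exact ⟨_, act_of hω h1 h2⟩

theorem Act.mem_normalizer [Finite F] (hω : Om ω) (h : Act ω g A) :
    g ∈ subgroupNormalizer (stdR hω) := by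
  have := finite_gl (F := F)
  refine Subgroup.mem_normalizer_fintype ?_
  rintro n ⟨h1, a, b, h2⟩
  exact ⟨by rw [← cj_coe, det_cj, h1], _, _, h _ _ _ h2⟩

theorem Act.mem (hω : Om ω) (h : Act ω g 1) (hd : (g : M3 F).det = 1) : g ∈ stdR hω := by
  obtain ⟨s, hs⟩ := h.X
  obtain ⟨t, ht⟩ := h.Y
  simp only [one_apply_eq, ne_eq, one_ne_zero, zero_ne_one, not_false_eq_true, one_apply_ne, EE_X,
    EE_Y] at hs ht
  have hs3 : s ^ 3 = 1 := by
    have := congrArg Matrix.det hs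
    rwa [det_cj, det_smul, hω.det_XS, mul_one, Fintype.card_fin, eq_comm] at this
  have ht3 : t ^ 3 = 1 := by
    have := congrArg Matrix.det ht
    rwa [det_cj, det_smul, det_YS, mul_one, Fintype.card_fin, eq_comm] at this
  obtain ⟨k, a, b, c, e⟩ := hω.exists_diag hs3 (by rw [cj_eq_iff.1 hs, smul_mul_assoc])
  have h1 : YS F ^ k * g * YS F = t • (YS F * (YS F ^ k * g)) := by
    rw [mul_assoc, cj_eq_iff.1 ht, smul_mul_assoc, mul_smul_comm, ← mul_assoc, ← mul_assoc,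
      ← pow_succ, ← pow_succ']
  rw [e] at h1
  have h2 := congrFun (congrFun h1 1) 0
  have h3 := congrFun (congrFun h1 2) 1
  simp [YS] at h2 h3
  exact ⟨hd, hω.pr_of_diag ht3 (k := k) (a := a) (by rw [e, h3, h2, pow_two, mul_assoc])⟩

theorem act_of_mem (hω : Om ω) (hg : g ∈ stdR hω) : Act ω g 1 := fun U a b hU => by
  obtain ⟨-, c', d', h2⟩ := (stdR hω).inv_mem hg
  obtain ⟨-, c, d, h1⟩ := hg
  have h3 := (h1.mul hω h2).unique hω (by rw [Units.mul_inv, det_one]; exact one_ne_zero)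
    (by rw [Units.mul_inv]; exact pr_one)
  refine ((h1.mul hω hU).mul hω h2).congr ?_ ?_ <;> simp
  · linear_combination h3.1
  · linear_combination h3.2

end Act

/-! ### the column -/

structure Col6 (M : Subgroup (GL (Fin 3) F)) : Prop where
  pow : ∀ x ∈ M, x ^ 108 = 1
  inv : ∀ s ∈ M, ∀ t ∈ M, s ^ 2 = 1 → t ^ 2 = 1 → (s * t) ^ 2 = 1 → s = 1 ∨ t = 1 ∨ s * t = 1

theorem Col6.mono (h : Col6 M') (hle : M ≤ M') : Col6 M :=
  ⟨fun x hx => h.pow x (hle hx), fun s hs t ht => h.inv s (hle hs) t (hle ht)⟩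

theorem Col6.pull (h : Col6 M) (B : GL (Fin 3) F) : Col6 (pull B M) :=
  ⟨fun x hx => by simpa only [conj_pow, conj_eq_one_iff] using h.pow _ (mem_pull.1 hx),
    fun s hs t ht => by
      simpa only [conj_mul, conj_pow, conj_eq_one_iff]
        using h.inv _ (mem_pull.1 hs) _ (mem_pull.1 ht)⟩

theorem col6_std (hω : Om ω) : Col6 (subgroupNormalizer (stdR hω) ⊓ specialLinear (Fin 3) F) := by
  have k1 : ∀ a b c d : ZMod 3, a * d - b * c = 1 → !![a, b; c, d] ^ 12 = 1 := by decide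
  have k2 : ∀ a b c d : ZMod 3, a * d - b * c = 1 → !![a, b; c, d] ^ 2 = 1 →
      !![a, b; c, d] = 1 ∨ !![a, b; c, d] = -1 := by decide
  have k3 : ∀ s ∈ specialLinear (Fin 3) F, Act ω s 1 → s ^ 2 = 1 → s = 1 := fun s hs h1 h2 => by
    have := pow_nine hω (h1.mem hω (mem_specialLinear.1 hs))
    rwa [show 9 = 2 * 4 + 1 from rfl, pow_succ, pow_mul, h2, one_pow, one_mul] at this
  have k4 : ∀ s ∈ subgroupNormalizer (stdR hω) ⊓ specialLinear (Fin 3) F, s ^ 2 = 1 →
      s = 1 ∨ Act ω s (-1) := fun s hs h2 => by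
    obtain ⟨A, hA⟩ := exists_act hω hs.1
    have h3 := (hA.pow 2).unique hω (h2 ▸ act_one)
    have h4 := hA.det hω
    rw [eta_fin_two A] at h3 hA
    rcases k2 _ _ _ _ (by rwa [det_fin_two] at h4) h3 with e | e
    · exact Or.inl (k3 s hs.2 (e ▸ hA) h2)
    · exact Or.inr (e ▸ hA)
  refine ⟨fun x hx => ?_, fun s hs t ht h1 h2 h3 => ?_⟩
  · obtain ⟨A, hA⟩ := exists_act hω hx.1
    have h1 := hA.pow 12
    rw [eta_fin_two A, k1 _ _ _ _ (by rw [← det_fin_two, hA.det hω])] at h1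
    rw [show 108 = 12 * 9 from rfl, pow_mul]
    exact pow_nine hω (h1.mem hω (mem_specialLinear.1 (pow_mem hx.2 12)))
  · rcases k4 s hs h1 with e | e
    · exact Or.inl e
    rcases k4 t ht h2 with e' | e'
    · exact Or.inr (Or.inl e')
    exact Or.inr (Or.inr (k3 _ (mul_mem hs.2 ht.2) (by simpa using e.mul e') h3))

theorem MonRow.not_col6 {A : Subgroup Fˣ} (h : MonRow A M) (h1 : -1 ∈ A) (h2 : (2 : F) ≠ 0) :
    ¬ Col6 M := fun h6 => by
  have h3 : (-1 : Fˣ) ≠ 1 := fun e => h2 (by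
    have := congrArg Units.val e
    simp only [Units.val_neg, Units.val_one] at this
    linear_combination -this)
  have := h6.inv _ (h.dg_mem _ h1 _ h1 _ A.one_mem (by simp)) _
    (h.dg_mem _ A.one_mem _ h1 _ h1 (by simp))
  simp only [pow_two, dg_mul, mul_neg, neg_neg, mul_one, ← dg_one, forall_const] at this
  rcases this with e | e | e
  exacts [h3 (dg_inj e).1, h3 (dg_inj e).2.1, h3 (dg_inj e).1]

end CfsgLib.Mit.Gm
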