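import Mathlib
import Cfsg.Agent.Lib.Mit.GeoHess

/-! The normal form of the extraspecial group of order 27 in `SL₃(q)`; the Hessian group.
See `plans/MITCHELL.md`. -/

set_option autoImplicit false

namespace CfsgLib.Mit.Gm

open Matrix Cfsg Cfsg.Geo CfsgLib.Asch
open scoped MatrixGroups commutatorElement

variable {F : Type*} [Field F] {M M' P R : Subgroup (GL (Fin 3) F)} {g h x y : GL (Fin 3) F} {ω : F}

/-! ### normal form -/

theorem eq_smul_of_comm (hx : ⁅x, g⁆ ∈ scalars (Fin 3) F) :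
    ∃ s : F, s ^ 3 = 1 ∧ (x : M3 F) * g = s • (g * x) := by
  obtain ⟨s, hs⟩ := (mem_scalars_iff _).1 hx
  refine ⟨s, cube_eq_one_of_det (mem_specialLinear.1 ?_) hs, ?_⟩
  · rw [specialLinear, MonoidHom.mem_ker, map_commutatorElement,
      commutatorElement_eq_one_iff_mul_comm, mul_comm]
  · have : x * g = ⁅x, g⁆ * (g * x) := by rw [commutatorElement_def]; group
    rw [← Units.val_mul, this, Units.val_mul, hs, smul_mul_assoc, one_mul, Units.val_mul]

theorem exists_pair [Finite F] (hω : Om ω) (henv : env R = ⊤) (h3 : ∀ x ∈ R, x ^ 3 = 1) :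
    ∃ x ∈ R, ∃ y ∈ R, (x : M3 F) * y = ω • (y * x) ∧
      ∀ g ∈ R, ∃ s : F, s ^ 3 = 1 ∧ (g : M3 F) * x = s • (x * g) := by
  have := finite_gl (F := F)
  have : Fact (Nat.Prime 3) := ⟨Nat.prime_three⟩
  have hp : IsPGroup 3 R := fun g => ⟨1, Subtype.ext (by simpa using h3 g g.2)⟩
  have hn := not_comm_of_env (by simp) henv
  have hZ : ∀ z : R, z ∈ Subgroup.center R → (z : GL (Fin 3) F) ∈ scalars (Fin 3) F := fun z hz =>
    mem_scalars_of_comm_env henv fun y hy =>
      congrArg Subtype.val (Subgroup.mem_center_iff.1 hz ⟨y, hy⟩).symm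
  have : Nontrivial (R ⧸ Subgroup.center R) := by
    rw [QuotientGroup.nontrivial_iff]
    intro e
    exact hn fun a ha b hb => congrArg Subtype.val
      (Subgroup.mem_center_iff.1 (e ▸ Subgroup.mem_top (⟨b, hb⟩ : R)) ⟨a, ha⟩)
  have := (hp.to_quotient (Subgroup.center R)).center_nontrivial
  obtain ⟨⟨z, hz⟩, hz1⟩ := exists_ne (1 : Subgroup.center (R ⧸ Subgroup.center R))
  obtain ⟨x, rfl⟩ := QuotientGroup.mk_surjective z
  have key : ∀ g ∈ R, ∃ s : F, s ^ 3 = 1 ∧ (g : M3 F) * (x : GL (Fin 3) F) =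
      s • ((x : GL (Fin 3) F) * g) := fun g hg => eq_smul_of_comm (hZ ⁅(⟨g, hg⟩ : R), x⁆ (by
    rw [← QuotientGroup.eq_one_iff, ← QuotientGroup.mk'_apply, map_commutatorElement,
      commutatorElement_eq_one_iff_mul_comm]
    exact Subgroup.mem_center_iff.1 hz _))
  obtain ⟨y, hy⟩ : ∃ y : R, y * x ≠ x * y := by
    by_contra hc
    push Not at hc
    exact hz1 (Subtype.ext ((QuotientGroup.eq_one_iff _).2 (Subgroup.mem_center_iff.2 hc)))
  obtain ⟨s, hs, e⟩ := key y y.2
  rcases hω.cases hs with rfl | rfl | rfl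
  · exact absurd (Subtype.ext (Units.ext (by simpa using e))) hy
  · refine ⟨x, x.2, y * y, mul_mem y.2 y.2, ?_, key⟩
    rw [Units.val_mul, mul_assoc, e, mul_smul_comm, ← mul_assoc, ← mul_assoc, e, smul_mul_assoc,
      smul_smul, smul_smul, ← pow_three', hω.cube, one_smul]
  · exact ⟨x, x.2, y, y.2, by rw [e, smul_smul, ← pow_succ', hω.cube, one_smul], key⟩

theorem exists_eigen (hω : Om ω) {U : M3 F} (h : U ^ 3 = 1) :
    ∃ (l : F) (v : V3 F), l ^ 3 = 1 ∧ v ≠ 0 ∧ U *ᵥ v = l • v := by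
  have h1 : (U - (1 : F) • 1) * ((U - ω • 1) * (U - ω ^ 2 • 1)) = 0 := by
    simp only [sub_mul, mul_sub, smul_mul_assoc, mul_smul_comm, one_mul, mul_one]
    rw [← pow_three, h]
    match_scalars
    · linear_combination -hω.cube
    · linear_combination -hω.eq
    · linear_combination hω.eq + hω.cube
  have h2 := congrArg det h1
  have key : ∀ l : F, l ^ 3 = 1 → (U - l • 1).det = 0 →
      ∃ (l : F) (v : V3 F), l ^ 3 = 1 ∧ v ≠ 0 ∧ U *ᵥ v = l • v := fun l hl e => by
    obtain ⟨v, hv, e'⟩ := Matrix.exists_mulVec_eq_zero_iff.2 e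
    exact ⟨l, v, hl, hv, by rwa [sub_mulVec, smul_mulVec, one_mulVec, sub_eq_zero] at e'⟩
  rw [det_mul, det_mul, det_zero, mul_eq_zero, mul_eq_zero] at h2
  rcases h2 with e | e | e
  exacts [key _ (one_pow 3) e, key _ hω.cube e,
    key _ (by rw [← pow_mul, mul_comm, pow_mul, hω.cube, one_pow]) e]

theorem exists_basis (hω : Om ω) (hx : x ^ 3 = 1) (hy : y ^ 3 = 1)
    (e : (x : M3 F) * y = ω • (y * x)) : ∃ (B : GL (Fin 3) F) (l : F), l ^ 3 = 1 ∧
      ((B⁻¹ * x * B : GL (Fin 3) F) : M3 F) = l • XS ω ∧ B⁻¹ * y * B = yS F := by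
  obtain ⟨l, v, hl, hv, h1⟩ := exists_eigen hω (U := x) (by
    rw [← Units.val_pow_eq_pow_val, hx, Units.val_one])
  have hl0 : l ≠ 0 := fun e => by simp [e] at hl
  have h2 : ∀ w : V3 F, (x : M3 F) *ᵥ (y : M3 F) *ᵥ w = ω • (y : M3 F) *ᵥ (x : M3 F) *ᵥ w :=
    fun w => by rw [mulVec_mulVec, e, smul_mulVec, mulVec_mulVec]
  set C := cols v ((y : M3 F) *ᵥ v) ((y : M3 F) *ᵥ (y : M3 F) *ᵥ v) with hC
  have hX : (x : M3 F) * C = C * (l • XS ω) := by
    rw [hC, mul_cols, cols_mul, h2, h2, h2, h1]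
    simp [XS, mulVec_smul, smul_smul, mul_comm, pow_two, mul_left_comm]
  have hY : (y : M3 F) * C = C * YS F := by
    rw [hC, mul_cols, cols_mul, mulVec_mulVec, mulVec_mulVec, ← pow_three,
      ← Units.val_pow_eq_pow_val, hy]
    simp [YS]
  have hd : C.det ≠ 0 := fun h0 => by
    obtain ⟨u, hu, e0⟩ := Matrix.exists_mulVec_eq_zero_iff.2 h0
    have k1 : ∀ u, C *ᵥ u = 0 → C *ᵥ XS ω *ᵥ u = 0 := fun u hu => by
      have := congrArg (· *ᵥ u) hX
      simp only [← mulVec_mulVec, hu, mulVec_zero, smul_mulVec, mulVec_smul] at this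
      exact (smul_eq_zero.1 this.symm).resolve_left hl0
    have k2 : ∀ u, C *ᵥ u = 0 → C *ᵥ YS F *ᵥ u = 0 := fun u hu => by
      have := congrArg (· *ᵥ u) hY
      simpa only [← mulVec_mulVec, hu, mulVec_zero] using this.symm
    have k3 : ∀ u, C *ᵥ u = 0 → u 0 = 0 := fun u hu => by
      have h3 : C *ᵥ (u + XS ω *ᵥ u + XS ω *ᵥ XS ω *ᵥ u) = 0 := by
        rw [mulVec_add, mulVec_add, hu, k1 _ hu, k1 _ (k1 _ hu), add_zero, add_zero]
      rw [show u + XS ω *ᵥ u + XS ω *ᵥ XS ω *ᵥ u = ![3 * u 0, 0, 0] by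
        ext i
        fin_cases i <;> simp [XS, mulVec, dotProduct, Fin.sum_univ_three, vecHead, vecTail]
        · ring
        · linear_combination u 1 * hω.eq
        · linear_combination u 2 * hω.eq + u 2 * ω * hω.cube, hC, cols_mulVec] at h3
      simpa [hv, hω.three] using h3
    have a0 := k3 _ e0
    have a1 := k3 _ (k2 _ e0)
    have a2 := k3 _ (k2 _ (k2 _ e0))
    simp [YS, mulVec, dotProduct, Fin.sum_univ_three] at a1 a2
    exact hu (by ext i; fin_cases i <;> assumption)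
  refine ⟨GeneralLinearGroup.mkOfDetNeZero C hd, l, hl, ?_, Units.ext ?_⟩
  · rw [mul_assoc, Units.val_mul, Units.val_mul, Units.inv_mul_eq_iff_eq_mul]
    exact hX
  · rw [mul_assoc, Units.val_mul, Units.val_mul, Units.inv_mul_eq_iff_eq_mul]
    exact hY

theorem exists_pull_R [Finite F] (hω : Om ω) (henv : env R = ⊤) (h3 : ∀ x ∈ R, x ^ 3 = 1) :
    ∃ B, pull B R = stdR hω := by
  obtain ⟨x, hx, y, hy, e, key⟩ := exists_pair hω henv h3
  obtain ⟨B, l, hl, h1, h2⟩ := exists_basis hω (h3 x hx) (h3 y hy) e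
  have hl0 : l ≠ 0 := fun e => by simp [e] at hl
  have hy' : yS F ∈ pull B R := by rw [← h2, mem_pull]; simpa [mul_assoc] using hy
  have h3' : ∀ g ∈ pull B R, (g : M3 F) ^ 3 = 1 := fun g hg => by
    have := h3 _ (mem_pull.1 hg)
    rw [conj_pow, conj_eq_one_iff] at this
    rw [← Units.val_pow_eq_pow_val, this, Units.val_one]
  refine ⟨B, le_antisymm (fun g hg => ?_)
    (stdR_le hω (by rw [mem_pull]; simpa [mul_assoc] using hx) h1 hl hy')⟩
  obtain ⟨s, hs, h4⟩ := key _ (mem_pull.1 hg)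
  have h5 : (g : M3 F) * XS ω = s • (XS ω * g) := by
    have := congrArg (cj B⁻¹) h4
    rw [map_smul, map_mul, map_mul, ← cj_coe, cj_inv_cj, cj_coe, inv_inv, h1, mul_smul_comm,
      smul_mul_assoc, smul_comm] at this
    exact smul_right_injective _ hl0 this
  obtain ⟨k, a, b, c, h6⟩ := hω.exists_diag hs h5
  have h7 := h3' _ (mul_mem (pow_mem hy' k) hg)
  have h8 := h3' _ (mul_mem (mul_mem (pow_mem hy' k) hg) hy')
  have h9 : ((yS F ^ k * g : GL (Fin 3) F) : M3 F) = !![a, 0, 0; 0, b, 0; 0, 0, c] := h6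
  rw [Units.val_mul, h9, coe_yS] at h8
  rw [h9] at h7
  have a0 := congrFun (congrFun h7 0) 0
  have a1 := congrFun (congrFun h7 1) 1
  have a2 := congrFun (congrFun h8 0) 0
  simp [pow_succ] at a0 a1 a2
  refine ⟨?_, hω.pr_of_diag (s := b * a ^ 2) (k := k) (a := a) (by
    linear_combination a1 * a ^ 6 + (a ^ 3 + 1) * a0) ?_⟩
  · have := congrArg det h6
    rw [det_mul, det_pow, det_YS, one_pow, one_mul] at this
    rw [this, det_fin_three]
    simp
    linear_combination a2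
  · rw [h6, show b * a ^ 2 * a = b by linear_combination b * a0,
      show (b * a ^ 2) ^ 2 * a = c by
        linear_combination (b ^ 2 * a ^ 2) * a0 -
          a ^ 2 * b ^ 2 * a2 + (c * a ^ 3) * a1 + c * a0]

theorem pull_normalizer (B : GL (Fin 3) F) (R : Subgroup (GL (Fin 3) F)) :
    pull B (subgroupNormalizer R) = subgroupNormalizer (pull B R) :=
  Subgroup.comap_normalizer_eq_of_surjective R (MulAut.conj B).surjective

theorem col6_of_le (hω : Om ω) {B : GL (Fin 3) F} (hB : pull B R = stdR hω)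
    (h : M ≤ subgroupNormalizer R) (hSL : M ≤ specialLinear (Fin 3) F) : Col6 M :=
  ((col6_std hω).pull B⁻¹).mono (le_pull_inv (by
    rw [← hB, ← pull_normalizer, ← pull_SL B, ← pull_inf]
    exact pull_mono B (le_inf h hSL)))

/-! ### the Hessian group -/

/-- the normalising factor of the Fourier matrix -/
def th (ω : F) : F := (ω ^ 2 - ω) / 3

theorem Om.th1 (hω : Om ω) : 3 * th ω = ω ^ 2 - ω := mul_div_cancel₀ _ hω.three

theorem Om.th2 (hω : Om ω) : 3 * th ω ^ 2 = -1 := mul_left_cancel₀ hω.three (by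
  linear_combination (3 * th ω + ω ^ 2 - ω) * hω.th1 + (ω ^ 2 - 3 * ω + 3) * hω.eq)

/-- the Fourier matrix -/
def VS (ω : F) : M3 F := !![1, 1, 1; 1, ω, ω ^ 2; 1, ω ^ 2, ω]

/-- the Fourier matrix -/
noncomputable def fS (hω : Om ω) : GL (Fin 3) F := gl (th ω • VS ω) (by
  simp [VS, det_fin_three]
  linear_combination (th ω ^ 3 * (-ω * (ω - 1))) * hω.eq - 3 * th ω ^ 3 * hω.th1 +
    (3 * th ω ^ 2 - 1) * hω.th2)

theorem coe_fS (hω : Om ω) : (fS hω : M3 F) = th ω • VS ω := rfl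

theorem det_fS (hω : Om ω) : (fS hω : M3 F).det = 1 := by
  rw [coe_fS]
  simp [VS, det_fin_three]
  linear_combination (th ω ^ 3 * (-ω * (ω - 1))) * hω.eq - 3 * th ω ^ 3 * hω.th1 +
    (3 * th ω ^ 2 - 1) * hω.th2

theorem fS_sq (hω : Om ω) : fS hω ^ 2 = tS F := Units.ext (by
  have h1 : VS ω * VS ω = (3 : F) • !![1, 0, 0; 0, 0, 1; 0, 1, 0] := by
    ext i j
    fin_cases i <;> fin_cases j <;> simp [VS]
    · norm_num
    · linear_combination hω.eq
    · linear_combination hω.eq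
    · linear_combination hω.eq
    · linear_combination hω.eq + ω * hω.cube
    · linear_combination 2 * hω.cube
    · linear_combination hω.eq
    · linear_combination 2 * hω.cube
    · linear_combination hω.eq + ω * hω.cube
  rw [pow_two, Units.val_mul, coe_fS, smul_mul_assoc, mul_smul_comm, h1, smul_smul, smul_smul,
    show th ω * th ω * 3 = -1 by linear_combination hω.th2, coe_tS]
  simp)

/-- a diagonal matrix normalising `R` -/
def dS (hω : Om ω) : GL (Fin 3) F := dg (Units.mk0 ω hω.ne_zero) 1 1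

/-- the conjugate of `fS` by `dS` -/
noncomputable def fS' (hω : Om ω) : GL (Fin 3) F := dS hω * fS hω * dS hω ^ 2

theorem det_fS' (hω : Om ω) : (fS' hω : M3 F).det = 1 := by
  rw [fS', Units.val_mul, Units.val_mul, Units.val_pow_eq_pow_val, det_mul, det_mul, det_pow,
    det_fS, dS, det_dg]
  simp
  linear_combination hω.cube

theorem act_fS (hω : Om ω) : Act ω (fS hω) !![0, 1; 2, 0] := by
  refine act_of' hω (s := 1) (t := 1) ?_ ?_
  · rw [coe_fS, one_smul, smul_mul_assoc, mul_smul_comm]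
    congr 1
    ext i j
    fin_cases i <;> fin_cases j <;>
      simp [EE, VS, XS, YS, show (2 : ZMod 3).val = 2 from rfl, pow_two]
    · linear_combination ω * hω.cube
    · linear_combination hω.cube
    · linear_combination hω.cube
  · rw [coe_fS, one_smul, smul_mul_assoc, mul_smul_comm, EE_X]
    congr 1
    ext i j
    fin_cases i <;> fin_cases j <;> simp [VS, XS, YS, pow_two]
    · linear_combination -hω.cube
    · linear_combination -ω * hω.cube
    · linear_combination -hω.cube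

theorem act_dS (hω : Om ω) : Act ω (dS hω) !![1, 1; 0, 1] := by
  refine act_of' hω (s := 1) (t := ω) ?_ ?_
  · simp [EE_X, dS, coe_dg, XS]
  · ext i j
    fin_cases i <;> fin_cases j <;>
      simp [EE, dS, coe_dg, XS, YS, show (1 : ZMod 3).val = 1 from rfl, pow_two]
    · linear_combination -hω.cube
    · linear_combination -hω.cube

theorem act_fS' (hω : Om ω) : Act ω (fS' hω) !![2, 2; 2, 1] := by
  have := ((act_dS hω).mul (act_fS hω)).mul ((act_dS hω).pow 2)
  rwa [show (!![1, 1; 0, 1] * !![0, 1; 2, 0] * !![1, 1; 0, 1] ^ 2 :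
    Matrix (Fin 2) (Fin 2) (ZMod 3)) = !![2, 2; 2, 1] by decide] at this

/-- `M` contains the Hessian group `3 ^ (1 + 2) : Q₈` -/
structure HessRow (hω : Om ω) (M : Subgroup (GL (Fin 3) F)) : Prop where
  x_mem : xS hω ∈ M
  y_mem : yS F ∈ M
  f_mem : fS hω ∈ M
  f'_mem : fS' hω ∈ M

theorem mk0_mem_roots (hω : Om ω) : Units.mk0 ω hω.ne_zero ∈ rootsOfUnity 3 F :=
  (mem_rootsOfUnity' _ _).2 hω.cube

theorem mk0_sq_ne (hω : Om ω) : Units.mk0 ω hω.ne_zero ^ 2 ≠ 1 := fun e =>
  hω.sq_ne_one (congrArg Units.val e)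

theorem hessRow_normalizer [Finite F] (hω : Om ω) : HessRow hω (subgroupNormalizer (stdR hω)) :=
  ⟨Subgroup.le_normalizer (xS_mem hω), Subgroup.le_normalizer (yS_mem hω),
    (act_fS hω).mem_normalizer hω, (act_fS' hω).mem_normalizer hω⟩

theorem hessRow_SL (hω : Om ω) : HessRow hω (specialLinear (Fin 3) F) :=
  ⟨mem_specialLinear.2 hω.det_XS, mem_specialLinear.2 det_yS, mem_specialLinear.2 (det_fS hω),
    mem_specialLinear.2 (det_fS' hω)⟩

namespace HessRow

variable {hω : Om ω}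

theorem mono (h : HessRow hω M) (hle : M ≤ M') : HessRow hω M' :=
  ⟨hle h.x_mem, hle h.y_mem, hle h.f_mem, hle h.f'_mem⟩

theorem inf (h : HessRow hω M) (h' : HessRow hω M') : HessRow hω (M ⊓ M') :=
  ⟨⟨h.x_mem, h'.x_mem⟩, ⟨h.y_mem, h'.y_mem⟩, ⟨h.f_mem, h'.f_mem⟩, ⟨h.f'_mem, h'.f'_mem⟩⟩

theorem le (h : HessRow hω M) : stdR hω ≤ M :=
  stdR_le hω h.x_mem (one_smul _ _).symm (one_pow 3) h.y_mem

theorem monRow (h : HessRow hω M) : MonRow (rootsOfUnity 3 F) M := by
  refine ⟨fun a ha b hb c _ e => h.le ⟨?_, ?_⟩, fS_sq hω ▸ M.pow_mem h.f_mem 2, h.y_mem⟩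
  · rw [det_dg, ← Units.val_mul, ← Units.val_mul, e, Units.val_one]
  rw [mem_rootsOfUnity'] at ha hb
  have e' : (a : F) * b * c = 1 := by rw [← Units.val_mul, ← Units.val_mul, e, Units.val_one]
  refine hω.pr_of_diag (s := b * a ^ 2) (k := 0) (a := a)
    (by linear_combination hb * (a : F) ^ 6 + ((a : F) ^ 3 + 1) * ha) ?_
  rw [pow_zero, one_mul, coe_dg, show (b : F) * a ^ 2 * a = b by linear_combination (b : F) * ha,
    show ((b : F) * a ^ 2) ^ 2 * a = c by
      linear_combination ((b : F) ^ 2 * a ^ 2) * ha - (a : F) ^ 2 * b ^ 2 * e' +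
        (c * (a : F) ^ 3) * hb + c * ha]

theorem not_col2 (h : HessRow hω M) : ¬ Col2 M :=
  h.monRow.not_col2_of_sq (mk0_mem_roots hω) (fun e => hω.ne_one (congrArg Units.val e)) h.f_mem
    (fS_sq hω)

theorem env_top (h : HessRow hω M) : env M = ⊤ :=
  h.monRow.env_top (mk0_mem_roots hω) (mk0_sq_ne hω)

end HessRow

theorem card_stdR (hω : Om ω) : Nat.card (stdR hω) = 27 := by
  let φ : Fin 3 × ZMod 3 × ZMod 3 → stdR hω := fun i =>
    ⟨gl (ω ^ i.1.val • EE ω i.2.1 i.2.2) (by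
      rw [det_smul, hω.det_EE, Fintype.card_fin, ← pow_mul, mul_comm _ 3, pow_mul, hω.cube]
      simp), by
      rw [coe_gl, det_smul, hω.det_EE, Fintype.card_fin, ← pow_mul, mul_comm _ 3, pow_mul, hω.cube]
      simp, _, _, _, rfl⟩
  rw [← Nat.card_eq_of_bijective φ ⟨?_, ?_⟩]
  · simp
  · rintro ⟨i, a, b⟩ ⟨j, c, d⟩ e
    have e' : ω ^ i.val • EE ω a b = ω ^ j.val • EE ω c d :=
      congrArg (fun g : stdR hω => ((g : GL (Fin 3) F) : M3 F)) e
    obtain ⟨rfl, rfl⟩ := Pr.unique hω (φ (i, a, b)).1.det_ne_zero ⟨_, rfl⟩ ⟨_, e'⟩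
    have h1 := hω.pow_inj (smul_left_injective F (fun h0 => by simpa [h0] using hω.det_EE a b) e')
    congr 1
    clear e e'
    revert i j
    decide
  · rintro ⟨g, h1, a, b, s, hs⟩
    have h2 : s ^ 3 = 1 := by rwa [hs, det_smul, hω.det_EE, mul_one, Fintype.card_fin] at h1
    rcases hω.cases h2 with rfl | rfl | rfl
    · exact ⟨(0, a, b), Subtype.ext (Units.ext (by simp [φ, coe_gl, hs]))⟩
    · exact ⟨(1, a, b), Subtype.ext (Units.ext (by simp [φ, coe_gl, hs]))⟩
    · exact ⟨(2, a, b), Subtype.ext (Units.ext (by simp [φ, coe_gl, hs]))⟩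

theorem HessRow.card_ge [Finite F] {hω : Om ω} (h : HessRow hω M) : 216 ≤ Nat.card M := by
  have := finite_gl (F := F)
  let φ : stdR hω × Fin 4 × Fin 2 → M := fun i =>
    ⟨i.1 * (fS hω ^ i.2.1.val * fS' hω ^ i.2.2.val),
      M.mul_mem (h.le i.1.2) (M.mul_mem (M.pow_mem h.f_mem _) (M.pow_mem h.f'_mem _))⟩
  have := Nat.card_le_card_of_injective φ (by
    rintro ⟨r, i, j⟩ ⟨r', i', j'⟩ e
    have e' : (r : GL (Fin 3) F) * (fS hω ^ i.val * fS' hω ^ j.val) =
      r' * (fS hω ^ i'.val * fS' hω ^ j'.val) := congrArg Subtype.val e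
    have h1 := ((act_of_mem hω r.2).mul (((act_fS hω).pow i).mul ((act_fS' hω).pow j))).unique hω
      (e' ▸ (act_of_mem hω r'.2).mul (((act_fS hω).pow i').mul ((act_fS' hω).pow j')))
    obtain ⟨rfl, rfl⟩ : i = i' ∧ j = j' := by
      clear e e'
      revert i j i' j'
      decide
    rw [Subtype.ext (mul_right_cancel e')])
  simpa [card_stdR] using this

/-! ### the residual class -/

theorem card_center_dvd [Finite F] (hP : P ≤ specialLinear (Fin 3) F)
    (h : P ≤ scalars (Fin 3) F) : Nat.card P ∣ 3 := by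
  have := isCyclic_scalars (ι := Fin 3) (F := F)
  have := Subgroup.isCyclic_of_le h
  rw [← IsCyclic.exponent_eq_card]
  refine Monoid.exponent_dvd_of_forall_pow_eq_one fun z => Subtype.ext (Units.ext ?_)
  obtain ⟨c, hc⟩ := (mem_scalars_iff _).1 (h z.2)
  rw [SubmonoidClass.coe_pow, Units.val_pow_eq_pow_val, hc, smul_pow,
    cube_eq_one_of_det (mem_specialLinear.1 (hP z.2)) hc]
  simp

theorem card_eq_of_bar [Finite F] (hP : QS P) : ∃ z, z ∣ 3 ∧ Nat.card P = Nat.card (Bar P) * z := by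
  refine ⟨_, ?_, Subgroup.card_eq_card_quotient_mul_card_subgroup _⟩
  rw [← Subgroup.card_map_of_injective P.subtype_injective, Subgroup.subgroupOf_map_subtype]
  exact card_center_dvd (inf_le_right.trans (le_specialLinear_of_perfect hP.perfect)) inf_le_left

theorem card_bar_six (h : BarAlt P 6) : Nat.card (Bar P) = 360 := by
  obtain ⟨e⟩ := h
  have := two_mul_nat_card_alternatingGroup (α := Fin 6)
  rw [Nat.card_perm, Nat.card_eq_fintype_card (α := Fin 6), Fintype.card_fin] at this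
  rw [Nat.card_congr e.toEquiv]
  simp only [Nat.factorial] at this
  omega

theorem card_dvd_1080 [Finite F] (hP : QS P) (h : BarAlt P 6) : Nat.card P ∣ 1080 := by
  obtain ⟨z, hz, e⟩ := card_eq_of_bar hP
  rw [e, card_bar_six h]
  exact Nat.mul_dvd_mul_left 360 hz

/-- `3.A₆` does not contain the Hessian group -/
theorem not_hessRow [Finite F] (hP : QS P) (h : BarAlt P 6) {hω : Om ω} {B : GL (Fin 3) F} :
    ¬ HessRow hω (pull B P) := fun hr => by
  have := finite_gl (F := F)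
  have hP' : QS (pull B P) := pull_eq_map B P ▸ hP.conj B⁻¹
  obtain ⟨z, hz, e⟩ := card_eq_of_bar hP
  rw [card_bar_six h, ← card_pull B] at e
  generalize pull B P = P at *
  have hz3 := Nat.le_of_dvd (by norm_num) hz
  have hz0 := Nat.pos_of_dvd_of_pos hz (by norm_num)
  have hSL := le_specialLinear_of_perfect hP'.perfect
  have h1 := (hr.inf (hessRow_normalizer hω)).card_ge
  set N := (subgroupNormalizer (stdR hω)).subgroupOf P
  rw [inf_comm, ← Subgroup.subgroupOf_map_subtype,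
    Subgroup.card_map_of_injective P.subtype_injective] at h1
  have h2 := N.card_mul_index
  rcases hP'.eq_or_le_scalars (N := N.normalCore.map P.subtype) (Subgroup.map_subtype_le _)
    (by
      rintro g hg _ ⟨x, hx, rfl⟩
      exact ⟨_, N.normalCore_normal.conj_mem x hx ⟨g, hg⟩, rfl⟩) with h3 | h3
  · rcases hP'.eq_or_le_scalars hr.le (nrm_iff_le_normalizer.2 fun g hg => by
      obtain ⟨x, hx, rfl⟩ := h3.ge hg
      exact N.normalCore_le hx) with h4 | h4
    · rw [← h4, card_stdR] at e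
      omega
    · have := card_center_dvd (hr.le.trans hSL) h4
      rw [card_stdR] at this
      omega
  · have h4 := Nat.le_of_dvd (by norm_num)
      (card_center_dvd ((Subgroup.map_subtype_le _).trans hSL) h3)
    rw [Subgroup.card_map_of_injective P.subtype_injective] at h4
    have h5 := N.normalCore.card_mul_index
    have h6 : N.normalCore.index ≤ N.index.factorial := by
      rw [Subgroup.normalCore_eq_ker, Subgroup.index_ker, Subgroup.index, ← Nat.card_perm]
      exact Subgroup.card_le_card_group _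
    have h7 : 216 * N.index ≤ 360 * z := by rw [← e, ← h2]; exact Nat.mul_le_mul_right _ h1
    have h8 : 360 * z ≤ 3 * N.index.factorial := by rw [← e, ← h5]; exact Nat.mul_le_mul h4 h6
    generalize N.index = k at h7 h8
    have : k ≤ 5 := by omega
    interval_cases k <;> simp only [Nat.factorial] at h8 <;> omega

end CfsgLib.Mit.Gm
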