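import Mathlib
import Cfsg.Agent.Lib.Mit.GeoHess2
import Cfsg.Agent.Lib.Mit.Conic
import Cfsg.Agent.Lib.Asch.SUProper

/-! Subgroups of `SL₃(q)` containing `SL₃(q₀)`, `SO₃(q₀)`, `SU₃(q₀)` or a Singer cycle.
See `plans/MITCHELL.md`. -/

set_option autoImplicit false

namespace CfsgLib.Mit.Gm

open Matrix Cfsg Cfsg.Geo CfsgLib.Asch
open scoped MatrixGroups commutatorElement

variable {F : Type*} [Field F] {M M' : Subgroup (GL (Fin 3) F)} {x y : GL (Fin 3) F}
  {F₀ F₁ : Subfield F}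

theorem env_top_of_single (h1 : ∀ i, (single i 1 1 : M3 F) ∈ env M)
    (h2 : ∀ j, (single 1 j 1 : M3 F) ∈ env M) : env M = ⊤ := by
  rw [eq_top_iff]
  intro U _
  rw [matrix_eq_sum_single U]
  refine sum_mem fun i _ => sum_mem fun j _ => ?_
  have := (env M).smul_mem (mul_mem (h1 i) (h2 j)) (U i j)
  simpa using this

theorem card_dvd_of_hom {A : Type*} [Group A] (φ : A →* GL (Fin 3) F) (hφ : Function.Injective φ)
    (hM : ∀ a, φ a ∈ M) : Nat.card A ∣ Nat.card M :=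
  Subgroup.card_dvd_of_injective (φ.codRestrict M hM) fun _ _ e => hφ (congrArg Subtype.val e)

theorem rat_three {a b c d e f g h i : F} (ha : a ∈ F₀) (hb : b ∈ F₀) (hc : c ∈ F₀) (hd : d ∈ F₀)
    (he : e ∈ F₀) (hf : f ∈ F₀) (hg : g ∈ F₀) (hh : h ∈ F₀) (hi : i ∈ F₀) :
    Rat F₀ !![a, b, c; d, e, f; g, h, i] := fun k l => by
  fin_cases k <;> fin_cases l <;> assumption

theorem rat_two {a b c d : F} (ha : a ∈ F₀) (hb : b ∈ F₀) (hc : c ∈ F₀) (hd : d ∈ F₀) :
    Rat F₀ !![a, b; c, d] := fun k l => by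
  fin_cases k <;> fin_cases l <;> assumption

theorem rat_tS : Rat F₀ (tS F : M3 F) :=
  have h0 := F₀.zero_mem
  have h1 := F₀.neg_mem F₀.one_mem
  rat_three h1 h0 h0 h0 h0 h1 h0 h1 h0

theorem rat_yS : Rat F₀ (yS F : M3 F) :=
  have h0 := F₀.zero_mem
  have h1 := F₀.one_mem
  rat_three h0 h0 h1 h1 h0 h0 h0 h1 h0

theorem rat_dg {a b c : Fˣ} (ha : (a : F) ∈ F₀) (hb : (b : F) ∈ F₀) (hc : (c : F) ∈ F₀) :
    Rat F₀ (dg a b c : M3 F) :=
  have h0 := F₀.zero_mem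
  coe_dg a b c ▸ rat_three ha h0 h0 h0 hb h0 h0 h0 hc

/-! ### subfields -/

theorem exists_card_eq_pow [Finite F] (h : F₀ ≤ F₁) :
    ∃ k, 0 < k ∧ Nat.card F₁ = Nat.card F₀ ^ k := by
  let _ := (Subfield.inclusion h).toAlgebra
  have : Module.Finite F₀ F₁ := Module.Finite.of_finite
  exact ⟨_, Module.finrank_pos, Module.natCard_eq_pow_finrank⟩

theorem two_le_card [Finite F] (F₀ : Subfield F) : 2 ≤ Nat.card F₀ := Finite.one_lt_card

theorem eq_of_prime_index [Fintype F] {r r' : ℕ} (h : F₀ ≤ F₁) (hr : r.Prime) (hr' : r'.Prime)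
    (h0 : Fintype.card F = Nat.card F₀ ^ r) (h1 : Fintype.card F = Nat.card F₁ ^ r') :
    F₀ = F₁ ∧ r = r' := by
  obtain ⟨k, hk, e⟩ := exists_card_eq_pow h
  rw [h0, e, ← pow_mul] at h1
  have h2 := Nat.pow_right_injective (two_le_card F₀) h1
  have h3 : r' = r := (Nat.prime_dvd_prime_iff_eq hr' hr).1 ⟨k, by rw [h2, mul_comm]⟩
  have h4 : k = 1 := by
    rw [h3] at h2
    exact (Nat.mul_eq_right hr.ne_zero).1 h2.symm
  rw [h4, pow_one] at e
  exact ⟨SetLike.coe_injective (Set.eq_of_subset_of_ncard_le h e.le), h3.symm⟩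

theorem ne_top_of_card [Fintype F] {r : ℕ} (hr : r.Prime)
    (h0 : Fintype.card F = Nat.card F₀ ^ r) : ¬ ⊤ ≤ F₀ := fun h => by
  rw [top_le_iff.1 h, Nat.card_congr Subfield.topEquiv.toEquiv, ← Nat.card_eq_fintype_card] at h0
  have := Nat.pow_right_injective (Finite.one_lt_card (α := F)) ((pow_one _).trans h0)
  exact hr.one_lt.ne this

theorem pow_card_of_mem [Finite F] {a : F} (ha : a ∈ F₀) : a ^ Nat.card F₀ = a := by
  have := Fintype.ofFinite F₀
  rw [Nat.card_eq_fintype_card]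
  exact congrArg Subtype.val (FiniteField.pow_card (⟨a, ha⟩ : F₀))

theorem exists_frob (L : Type*) [Field L] [Algebra F L] [Finite F] {Q k : ℕ} (hk : k ≠ 0)
    (h : Nat.card F₀ = Q ^ k) : ∃ φ : L →+* L, ∀ x, φ x = x ^ Q := by
  obtain ⟨p, hp⟩ := CharP.exists F
  have := Fintype.ofFinite F₀
  obtain ⟨n, hpp, hn⟩ := FiniteField.card F₀ p
  have : Fact p.Prime := ⟨hpp⟩
  have : CharP L p := charP_of_injective_algebraMap (algebraMap F L).injective p
  rw [Nat.card_eq_fintype_card, hn] at h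
  obtain ⟨e, -, rfl⟩ := (Nat.dvd_prime_pow hpp).1 (h ▸ dvd_pow_self Q hk)
  exact ⟨iterateFrobenius L p e, iterateFrobenius_def p e⟩

theorem exists_zeta [Finite F] {n : ℕ} (h : n ∣ Nat.card F₁ - 1) :
    ∃ ζ : Fˣ, orderOf ζ = n ∧ (ζ : F) ∈ F₁ := by
  obtain ⟨g, hg⟩ := IsCyclic.exists_ofOrder_eq_natCard (α := F₁ˣ)
  rw [Nat.card_units] at hg
  refine ⟨Units.map F₁.subtype.toMonoidHom (g ^ (orderOf g / n)), ?_,
    (g ^ (orderOf g / n)).val.2⟩
  rw [orderOf_injective _ (Units.map_injective F₁.subtype.injective)]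
  exact orderOf_pow_orderOf_div (orderOf_pos g).ne' (hg ▸ h)

theorem le_of_zeta [Finite F] {q : ℕ} (h : Nat.card F₁ = q ^ 2) {ζ : Fˣ} (h1 : orderOf ζ = q + 1)
    (h2 : (ζ : F) ∈ F₁) (h3 : (ζ : F) ∈ F₀) : F₁ ≤ F₀ := by
  obtain ⟨k, hk, e⟩ := exists_card_eq_pow (inf_le_left : F₁ ⊓ F₀ ≤ F₁)
  have h4 := two_le_card (F₁ ⊓ F₀)
  have h5 : q + 1 ∣ Nat.card (F₁ ⊓ F₀ : Subfield F) - 1 := by
    rw [← h1, orderOf_dvd_iff_pow_eq_one]
    apply mul_right_cancel (b := ζ)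
    rw [← pow_succ, Nat.sub_add_cancel (by omega), one_mul]
    exact Units.ext (pow_card_of_mem ⟨h2, h3⟩)
  have h6 := Nat.le_of_dvd (by omega) h5
  have h7 : k = 1 := by
    by_contra hk1
    have := Nat.pow_le_pow_right (by omega : 0 < Nat.card (F₁ ⊓ F₀ : Subfield F)) (by omega : 2 ≤ k)
    rw [← e, h] at this
    have := Nat.pow_le_pow_left (by omega : q + 1 ≤ Nat.card (F₁ ⊓ F₀ : Subfield F)) 2
    nlinarith
  rw [h7, pow_one] at e
  have : F₁ ⊓ F₀ = F₁ := SetLike.coe_injective (Set.eq_of_subset_of_ncard_le inf_le_left e.le)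
  exact this ▸ inf_le_right

/-! ### `SL₃(q₀)` -/

/-- `M` contains `SL₃(F₀)` -/
def SLRow (F₀ : Subfield F) (M : Subgroup (GL (Fin 3) F)) : Prop :=
  ∀ x : GL (Fin 3) F, (x : M3 F).det = 1 → Rat F₀ (x : M3 F) → x ∈ M

/-- companion matrices -/
noncomputable def comp (a b : F) : GL (Fin 3) F :=
  gl !![0, 0, 1; 1, 0, -b; 0, 1, a] (by simp [det_fin_three])

theorem det_comp (a b : F) : (comp a b : M3 F).det = 1 := by simp [comp, coe_gl, det_fin_three]

theorem tr_comp (a b : F) : tr (comp a b) = a := by simp [tr, comp, coe_gl, trace_fin_three]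

theorem tr_comp_inv (a b : F) : tr (comp a b)⁻¹ = b := by
  rw [tr_inv (det_comp a b)]
  simp [comp, coe_gl, trace_fin_three, adjugate_fin_three]

/-- a group of elations -/
noncomputable def elH (F₀ : Subfield F) : Multiplicative (F₀ × F₀) →* GL (Fin 3) F :=
  MonoidHom.mk' (fun a => gl !![1, a.toAdd.1, a.toAdd.2; 0, 1, 0; 0, 0, 1] (by simp [det_fin_three]))
    fun a b => Units.ext (by simp [coe_gl, add_comm])

theorem elH_injective : Function.Injective (elH F₀) := fun _ _ e =>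
  Prod.ext (Subtype.ext (entry_eq e 0 1)) (Subtype.ext (entry_eq e 0 2))

namespace SLRow

theorem mono (h : SLRow F₀ M) (hle : M ≤ M') : SLRow F₀ M' := fun x h1 h2 => hle (h x h1 h2)

theorem comp_mem (h : SLRow F₀ M) {a b : F} (ha : a ∈ F₀) (hb : b ∈ F₀) : comp a b ∈ M :=
  have h0 := F₀.zero_mem
  have h1 := F₀.one_mem
  h _ (det_comp a b) (rat_three h0 h0 h1 h1 h0 (F₀.neg_mem hb) h0 h1 ha)

theorem elH_mem (h : SLRow F₀ M) (a : Multiplicative (F₀ × F₀)) : elH F₀ a ∈ M :=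
  have h0 := F₀.zero_mem
  have h1 := F₀.one_mem
  h _ (by simp [elH, coe_gl, det_fin_three]) (rat_three h1 a.toAdd.1.2 a.toAdd.2.2 h0 h1 h0 h0 h0 h1)

theorem env_top (h : SLRow F₀ M) : env M = ⊤ := by
  have key : ∀ i j : Fin 3, i ≠ j → (single i j 1 : M3 F) ∈ env M := fun i j hij => by
    have := (env M).sub_mem (coe_mem_env (h (gl _ (det_transvection_of_ne i j hij 1))
      (det_transvection_of_ne i j hij 1) (Rat.one.add (Rat.single i j F₀.one_mem)))) (one_mem _)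
    simpa [coe_gl, transvection] using this
  have h1 : (single 1 1 1 : M3 F) ∈ env M := by
    simpa using mul_mem (key 1 0 (by decide)) (key 0 1 (by decide))
  refine env_top_of_single (fun i => ?_) fun i => ?_
  · by_cases e : i = 1
    exacts [e ▸ h1, key _ _ e]
  · by_cases e : 1 = i
    exacts [e ▸ h1, key _ _ e]

theorem not_col2 [Finite F] (h : SLRow F₀ M) : ¬ Col2 M := fun h2 => by
  have := h2.card_dvd (elH F₀) elH_injective h.elH_mem fun a => by
    ext i j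
    fin_cases i <;> fin_cases j <;> simp [elH, coe_gl, one_fin_three, pow_succ]
  rw [Nat.card_congr Multiplicative.toAdd, Nat.card_prod] at this
  have h3 := two_le_card F₀
  have h4 := Nat.le_of_dvd (by norm_num) this
  generalize Nat.card F₀ = n at *
  have : n ≤ 2 := by nlinarith
  interval_cases n
  omega

theorem not_col3 (h : SLRow F₀ M) : ¬ Col3 M := fun h3 =>
  tS_ne_one (h3 _ (h _ det_tS rat_tS) tS_sq)

theorem le_of_col5 (h : SLRow F₀ M) (h5 : Col5 F₁ M) : F₀ ≤ F₁ := fun a ha =>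
  tr_comp a a ▸ h5.real (h.comp_mem ha ha) (by rw [tr_comp, tr_comp_inv])

theorem not_colF (h : SLRow F₀ M) (σ : F →+* F) : ¬ ColF σ M := fun hF => by
  obtain ⟨m, h1, h2⟩ := hF.one _ (h.comp_mem F₀.zero_mem F₀.one_mem)
  rw [tr_comp, tr_comp_inv, map_one, mul_one] at h2
  simp [← h2] at h1

theorem card_dvd (h : SLRow F₀ M) : Nat.card F₀ ^ 2 ∣ Nat.card M := by
  have := card_dvd_of_hom (elH F₀) elH_injective h.elH_mem
  rwa [Nat.card_congr Multiplicative.toAdd, Nat.card_prod, ← pow_two] at this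

theorem seven_dvd (h : SLRow F₀ M) (h2 : (2 : F) = 0) : 7 ∣ Nat.card M := by
  have : Fact (Nat.Prime 7) := ⟨by norm_num⟩
  have h1 : orderOf (comp (0 : F) 1) = 7 := orderOf_eq_prime (Units.ext (by
    rw [Units.val_pow_eq_pow_val, Units.val_one, one_fin_three]
    ext i j
    fin_cases i <;> fin_cases j <;> simp [comp, coe_gl, pow_succ] <;>
      first | linear_combination h2 | linear_combination -h2)) fun e => by
      simpa [comp, coe_gl] using entry_eq e 0 0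
  exact h1 ▸ M.orderOf_dvd_natCard (h.comp_mem F₀.zero_mem F₀.one_mem)

end SLRow

theorem slRow_subfield (F₀ : Subfield F) :
    SLRow F₀ (subfieldSubgroup F₀ 1 ⊓ specialLinear (Fin 3) F) := fun _ h1 h2 =>
  ⟨mem_subfield_one.2 ⟨1, by simpa using h2⟩, mem_specialLinear.2 h1⟩

/-! ### `SO₃(q₀)` -/

/-- `M` contains `SO₃(F₀)` -/
def ORow (F₀ : Subfield F) (M : Subgroup (GL (Fin 3) F)) : Prop :=
  ∀ A : GL (Fin 2) F, Rat F₀ (A : Matrix (Fin 2) (Fin 2) F) → adjH A ∈ M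

/-- `adjH` of an explicit matrix -/
noncomputable def ad (a b c d : F) (h : a * d - b * c ≠ 0) : GL (Fin 3) F :=
  adjH (GeneralLinearGroup.mkOfDetNeZero !![a, b; c, d] (by rwa [det_fin_two_of]))

theorem coe_ad (a b c d : F) (h : a * d - b * c ≠ 0) : (ad a b c d h : M3 F) =
    (a * d - b * c)⁻¹ • !![a ^ 2, 2 * a * b, b ^ 2; a * c, a * d + b * c, b * d;
      c ^ 2, 2 * c * d, d ^ 2] := by
  rw [ad, coe_adjH, adj2]
  simp

theorem tr_adjH_inv (A : GL (Fin 2) F) : tr (adjH A)⁻¹ = tr (adjH A) := by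
  have := gl2_det_ne A
  rw [← map_inv, tr, tr, coe_adjH, coe_adjH, trace_adj2 (gl2_det_ne _), trace_adj2 this,
    Matrix.coe_units_inv, det_nonsing_inv, inv_def, adjugate_fin_two, trace_fin_two, trace_fin_two]
  simp
  field_simp
  ring

/-- a group of unipotent elements -/
noncomputable def upH (F₀ : Subfield F) : Multiplicative F₀ →* GL (Fin 3) F :=
  MonoidHom.mk' (fun s => ad 1 s.toAdd 0 1 (by simp)) fun a b => Units.ext (by
    ext i j
    fin_cases i <;> fin_cases j <;> simp [coe_ad] <;> ring)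

theorem coe_upH (s : Multiplicative F₀) : (upH F₀ s : M3 F) =
    !![1, 2 * (s.toAdd : F), (s.toAdd : F) ^ 2; 0, 1, (s.toAdd : F); 0, 0, 1] := by
  simp [upH, coe_ad]

theorem upH_injective : Function.Injective (upH F₀) := fun _ _ e => by
  simpa [coe_upH] using entry_eq e 1 2

namespace ORow

theorem mono (h : ORow F₀ M) (hle : M ≤ M') : ORow F₀ M' := fun x h1 => hle (h x h1)

theorem ad_mem (h : ORow F₀ M) {a b c d : F} (hd : a * d - b * c ≠ 0) (ha : a ∈ F₀) (hb : b ∈ F₀)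
    (hc : c ∈ F₀) (hd' : d ∈ F₀) : ad a b c d hd ∈ M := h _ (rat_two ha hb hc hd')

theorem upH_mem (h : ORow F₀ M) (s : Multiplicative F₀) : upH F₀ s ∈ M :=
  h.ad_mem (by simp) F₀.one_mem s.toAdd.2 F₀.zero_mem F₀.one_mem

theorem env_top (h : ORow F₀ M) (h2 : (2 : F) ≠ 0) : env M = ⊤ := by
  have h0 := F₀.zero_mem
  have h1 := F₀.one_mem
  have hN : (!![0, 2, 1; 0, 0, 1; 0, 0, 0] : M3 F) ∈ env M := by
    convert sub_mem (coe_mem_env
      (h.ad_mem (a := 1) (b := 1) (c := 0) (d := 1) (by simp) h1 h1 h0 h1)) (one_mem _) using 1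
    ext k l; fin_cases k <;> fin_cases l <;> simp [coe_ad]
  have hN' : (!![0, 0, 0; 1, 0, 0; 1, 2, 0] : M3 F) ∈ env M := by
    convert sub_mem (coe_mem_env
      (h.ad_mem (a := 1) (b := 0) (c := 1) (d := 1) (by simp) h1 h0 h1 h1)) (one_mem _) using 1
    ext k l; fin_cases k <;> fin_cases l <;> simp [coe_ad]
  have hE : (!![0, 0, 0; 0, 1, 0; 0, 0, 0] : M3 F) ∈ env M := by
    have a := (env M).smul_mem (mul_mem hN hN) (2 : F)⁻¹
    have b := (env M).smul_mem (mul_mem hN' hN') (2 : F)⁻¹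
    convert sub_mem (sub_mem (one_mem _) (mul_mem a b)) (mul_mem b a) using 1
    ext k l; fin_cases k <;> fin_cases l <;> simp [h2]
  refine env_top_of_single (fun i => ?_) fun i => ?_ <;> fin_cases i
  · convert (env M).smul_mem (mul_mem hN hE) (2 : F)⁻¹ using 1
    ext k l; fin_cases k <;> fin_cases l <;> simp [h2]
  · convert hE using 1
    ext k l; fin_cases k <;> fin_cases l <;> simp
  · convert (env M).smul_mem (mul_mem hN' hE) (2 : F)⁻¹ using 1
    ext k l; fin_cases k <;> fin_cases l <;> simp [h2]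
  · convert mul_mem hE hN' using 1
    ext k l; fin_cases k <;> fin_cases l <;> simp
  · convert hE using 1
    ext k l; fin_cases k <;> fin_cases l <;> simp
  · convert mul_mem hE hN using 1
    ext k l; fin_cases k <;> fin_cases l <;> simp

theorem dvd_six (h : ORow F₀ M) (h2 : Col2 M) : Nat.card F₀ ∣ 6 := by
  have := h2.card_dvd (upH F₀) upH_injective h.upH_mem fun a => by
    ext i j
    fin_cases i <;> fin_cases j <;> simp [coe_upH, one_fin_three, pow_succ]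
  rwa [Nat.card_congr Multiplicative.toAdd] at this

theorem card_dvd (h : ORow F₀ M) : Nat.card F₀ ∣ Nat.card M := by
  have := card_dvd_of_hom (upH F₀) upH_injective h.upH_mem
  rwa [Nat.card_congr Multiplicative.toAdd] at this

theorem exists_invol (h : ORow F₀ M) : ∃ s ∈ M, ∃ t ∈ M,
    (s : M3 F) = !![-1, 0, 0; 0, 1, 0; 0, 0, -1] ∧ (t : M3 F) = !![0, 0, -1; 0, -1, 0; -1, 0, 0] :=
  have h0 := F₀.zero_mem
  have h1 := F₀.one_mem
  ⟨_, h.ad_mem (a := 1) (b := 0) (c := 0) (d := -1) (by simp) h1 h0 h0 (F₀.neg_mem h1),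
    _, h.ad_mem (a := 0) (b := 1) (c := 1) (d := 0) (by simp) h0 h1 h1 h0,
    by simp [coe_ad], by simp [coe_ad]⟩

theorem not_col3 (h : ORow F₀ M) : ¬ Col3 M := fun h3 => by
  obtain ⟨-, -, t, ht, -, e⟩ := h.exists_invol
  simpa [e] using entry_eq (h3 t ht (Units.ext (by simp [pow_two, e, one_fin_three]))) 0 0

theorem not_col6 (h : ORow F₀ M) (h2 : (2 : F) ≠ 0) : ¬ Col6 M := fun h6 => by
  obtain ⟨s, hs, t, ht, e, e'⟩ := h.exists_invol
  rcases h6.inv s hs t ht (Units.ext (by simp [pow_two, e, one_fin_three]))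
    (Units.ext (by simp [pow_two, e', one_fin_three]))
    (Units.ext (by simp [pow_two, e, e', one_fin_three])) with h | h | h
  · have := entry_eq h 0 0
    simp only [e, of_apply, cons_val', cons_val_zero, Units.val_one, one_apply_eq] at this
    exact h2 (by linear_combination -this)
  · simpa [e'] using entry_eq h 0 0
  · simpa [e, e'] using entry_eq h 0 0

theorem exists_tr (h : ORow F₀ M) {a : F} (ha : a ∈ F₀) : ∃ x ∈ M, tr x = a ∧ tr x⁻¹ = tr x := by
  have h0 := F₀.zero_mem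
  have h1 := F₀.one_mem
  by_cases e : a + 1 = 0
  · refine ⟨_, h.ad_mem (a := 0) (b := 1) (c := 1) (d := 0) (by simp) h0 h1 h1 h0, ?_,
      tr_adjH_inv _⟩
    simp [tr, coe_ad, trace_fin_three]
    linear_combination -e
  · refine ⟨_, h.ad_mem (a := 0) (b := -(a + 1)) (c := 1) (d := a + 1) (by simpa using e) h0
      (F₀.neg_mem (F₀.add_mem ha h1)) h1 (F₀.add_mem ha h1), ?_, tr_adjH_inv _⟩
    simp [tr, coe_ad, trace_fin_three]
    field_simp
    ring

theorem le_of_col5 (h : ORow F₀ M) (h5 : Col5 F₁ M) : F₀ ≤ F₁ := fun _ ha => by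
  obtain ⟨x, hx, e, e'⟩ := h.exists_tr ha
  exact e ▸ h5.real hx e'

theorem map_of_colF (h : ORow F₀ M) (h2 : (2 : F) ≠ 0) {σ : F →+* F} (hF : ColF σ M) {a : F}
    (ha : a ∈ F₀) : σ a = a := by
  have key : ∀ a ∈ F₀, σ a ^ 3 = a ^ 3 := fun a ha => by
    obtain ⟨x, hx, e, e'⟩ := h.exists_tr ha
    obtain ⟨m, h1, h3⟩ := hF.one x hx
    rw [e', e] at h3
    linear_combination (-σ a ^ 3) * h1 - (a ^ 2 + a * m * σ a + m ^ 2 * σ a ^ 2) * h3
  have k0 := key a ha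
  by_cases h3 : (3 : F) = 0
  · exact sub_eq_zero.1 (pow_eq_zero_iff three_ne_zero |>.1
      (by linear_combination k0 + (σ a * a ^ 2 - σ a ^ 2 * a) * h3 : (σ a - a) ^ 3 = 0))
  have k1 := key _ (F₀.add_mem ha F₀.one_mem)
  have k2 := key _ (F₀.sub_mem ha F₀.one_mem)
  rw [map_add, map_one] at k1
  rw [map_sub, map_one] at k2
  exact mul_left_cancel₀ (mul_ne_zero h2 h3) (by linear_combination k1 + k2 - 2 * k0)

end ORow

/-! ### `SU₃(q₀)` -/

/-- `U` is rational and unitary -/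
def UR (F₁ : Subfield F) (σ : F →+* F) (U : M3 F) : Prop := Rat F₁ U ∧ Uᵀ * U.map σ = 1

theorem UR.mul {σ : F →+* F} {U V : M3 F} (h : UR F₁ σ U) (h' : UR F₁ σ V) : UR F₁ σ (U * V) :=
  ⟨h.1.mul h'.1, by
    rw [transpose_mul, Matrix.map_mul, mul_assoc, ← mul_assoc Uᵀ, h.2, one_mul, h'.2]⟩

/-- `M` contains `SU₃` over `F₁` -/
def URow (F₁ : Subfield F) (σ : F →+* F) (M : Subgroup (GL (Fin 3) F)) : Prop :=
  ∀ x : GL (Fin 3) F, (x : M3 F).det = 1 → UR F₁ σ (x : M3 F) → x ∈ M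

/-- the elements of norm one -/
def muG (F₁ : Subfield F) (σ : F →+* F) : Subgroup Fˣ where
  carrier := {a | (a : F) ∈ F₁ ∧ a * σ a = 1}
  mul_mem' {a b} ha hb := ⟨F₁.mul_mem ha.1 hb.1, by
    rw [Units.val_mul, map_mul]
    linear_combination (b * σ b) * ha.2 + hb.2⟩
  one_mem' := ⟨F₁.one_mem, by simp⟩
  inv_mem' {a} ha := by
    rw [Set.mem_ofPred_eq, Units.val_inv_eq_inv_val, map_inv₀, ← mul_inv, ha.2, inv_one]
    exact ⟨F₁.inv_mem ha.1, rfl⟩

theorem ur_dg {σ : F →+* F} {a b c : Fˣ} (ha : a ∈ muG F₁ σ) (hb : b ∈ muG F₁ σ)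
    (hc : c ∈ muG F₁ σ) : UR F₁ σ (dg a b c : M3 F) := ⟨rat_dg ha.1 hb.1 hc.1, by
  ext i j
  fin_cases i <;> fin_cases j <;>
    simp [coe_dg, Matrix.mul_apply, Fin.sum_univ_three, ha.2, hb.2, hc.2]⟩

theorem ur_tS {σ : F →+* F} : UR F₁ σ (tS F : M3 F) := ⟨rat_tS, by
  ext i j
  fin_cases i <;> fin_cases j <;> simp [coe_tS, Matrix.mul_apply, Fin.sum_univ_three]⟩

theorem ur_yS {σ : F →+* F} : UR F₁ σ (yS F : M3 F) := ⟨rat_yS, by
  ext i j
  fin_cases i <;> fin_cases j <;> simp [coe_yS, Matrix.mul_apply, Fin.sum_univ_three]⟩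

theorem neg_one_mem_muG {σ : F →+* F} : -1 ∈ muG F₁ σ := ⟨by simp, by simp⟩

theorem zeta_mem_muG {σ : F →+* F} {q : ℕ} (hσ : ∀ a, σ a = a ^ q) {ζ : Fˣ}
    (h1 : orderOf ζ = q + 1) (h2 : (ζ : F) ∈ F₁) : ζ ∈ muG F₁ σ :=
  ⟨h2, by rw [hσ, ← pow_succ', ← Units.val_pow_eq_pow_val, ← h1, pow_orderOf_eq_one, Units.val_one]⟩

theorem MonRow.anti {A A' : Subgroup Fˣ} (h : MonRow A M) (hle : A' ≤ A) : MonRow A' M :=
  ⟨fun a ha b hb c hc => h.dg_mem a (hle ha) b (hle hb) c (hle hc), h.t_mem, h.y_mem⟩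

theorem MonRow.order_sq_dvd [Finite F] {A : Subgroup Fˣ} (h : MonRow A M) {a : Fˣ} (ha : a ∈ A) :
    orderOf a ^ 2 ∣ Nat.card M :=
  Nat.card_zpowers a ▸ (h.anti (Subgroup.zpowers_le.2 ha)).sq_dvd_card

theorem om_of_order {ζ : Fˣ} (h : orderOf ζ = 3) : Om (ζ : F) := by
  have h6 : (ζ : F) ^ 3 = 1 := by
    rw [← Units.val_pow_eq_pow_val, ← h, pow_orderOf_eq_one, Units.val_one]
  have h7 : (ζ : F) - 1 ≠ 0 := sub_ne_zero.2 fun e => by
    rw [show ζ = 1 from Units.ext e, orderOf_one] at h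
    omega
  exact ⟨mul_left_cancel₀ h7 (by linear_combination h6), fun h8 => h7
    (pow_eq_zero_iff three_ne_zero |>.1
      (by linear_combination h6 + ((ζ : F) - ζ ^ 2) * h8 : ((ζ : F) - 1) ^ 3 = 0))⟩

theorem sq_ne_one_of_order {ζ : Fˣ} (h : 3 ≤ orderOf ζ) : ζ ^ 2 ≠ 1 := fun e => by
  have := Nat.le_of_dvd (by norm_num) (orderOf_dvd_of_pow_eq_one e)
  omega

theorem exists_zeta' [Finite F] {q : ℕ} (hq : Nat.card F₁ = q ^ 2) :
    2 ≤ q ∧ ∃ ζ : Fˣ, orderOf ζ = q + 1 ∧ (ζ : F) ∈ F₁ := by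
  refine ⟨?_, exists_zeta (by rw [hq, ← one_pow 2, Nat.sq_sub_sq]; exact dvd_mul_right _ _)⟩
  have := two_le_card F₁
  by_contra
  interval_cases q <;> omega

theorem card_top [Fintype F] : Nat.card (⊤ : Subfield F) = Fintype.card F := by
  rw [Nat.card_congr Subfield.topEquiv.toEquiv, Nat.card_eq_fintype_card]

namespace URow

variable {σ : F →+* F}

theorem mono (h : URow F₁ σ M) (hle : M ≤ M') : URow F₁ σ M' := fun x h1 h2 => hle (h x h1 h2)

theorem monRow (h : URow F₁ σ M) : MonRow (muG F₁ σ) M :=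
  ⟨fun a ha b hb c hc e => h _ (by
      rw [det_dg, ← Units.val_mul, ← Units.val_mul, e, Units.val_one]) (ur_dg ha hb hc),
    h _ det_tS ur_tS, h _ det_yS ur_yS⟩

theorem hessRow (h : URow F₁ σ M) {ω : F} (hω : Om ω) (h1 : ω ∈ F₁) (h2 : σ ω = ω ^ 2) :
    HessRow hω M := by
  have hw : Units.mk0 ω hω.ne_zero ∈ muG F₁ σ :=
    ⟨h1, by rw [Units.val_mk0, h2, ← pow_succ', hω.cube]⟩
  have h3 : σ (th ω) = -th ω := by
    rw [th, map_div₀, map_sub, map_pow, h2, map_ofNat, ← neg_div]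
    congr 1
    linear_combination ω * hω.cube
  have hf : UR F₁ σ (fS hω : M3 F) := by
    have h4 := F₁.one_mem
    have h5 := F₁.pow_mem h1 2
    refine ⟨(rat_three h4 h4 h4 h4 h1 h5 h4 h5 h1).smul
      (F₁.div_mem (F₁.sub_mem h5 h1) (natCast_mem F₁ 3)), ?_⟩
    ext i j
    fin_cases i <;> fin_cases j <;>
      simp [coe_fS, VS, Matrix.mul_apply, Fin.sum_univ_three, h2, h3]
    · linear_combination -hω.th2
    · linear_combination -th ω ^ 2 * (hω.eq + ω * hω.cube)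
    · linear_combination -th ω ^ 2 * (hω.eq + ω * hω.cube)
    · linear_combination -th ω ^ 2 * hω.eq
    · linear_combination -hω.th2 - th ω ^ 2 * (ω ^ 3 + 2) * hω.cube
    · linear_combination -th ω ^ 2 * (hω.eq + (ω + ω ^ 2) * hω.cube)
    · linear_combination -th ω ^ 2 * hω.eq
    · linear_combination -th ω ^ 2 * (hω.eq + (ω + ω ^ 2) * hω.cube)
    · linear_combination -hω.th2 - th ω ^ 2 * (ω ^ 3 + 2) * hω.cube
  have hd : UR F₁ σ (dS hω : M3 F) := ur_dg hw (one_mem _) (one_mem _)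
  refine ⟨?_, h _ det_yS ur_yS, h _ (det_fS hω) hf, h _ (det_fS' hω) ?_⟩
  · have := h.monRow.dg_mem _ (one_mem _) _ hw _ (pow_mem hw 2)
      (Units.ext (by simpa [← pow_succ'] using hω.cube))
    convert this using 1
    exact Units.ext (by rw [coe_dg]; rfl)
  · rw [fS', pow_two]
    exact (hd.mul hf).mul (hd.mul hd)

theorem not_col2 [Finite F] (h : URow F₁ σ M) {q : ℕ} (hq : Nat.card F₁ = q ^ 2)
    (hσ : ∀ a, σ a = a ^ q) : ¬ Col2 M := by
  obtain ⟨h2, ζ, h3, h4⟩ := exists_zeta' hq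
  have h5 : ζ ≠ 1 := fun e => by rw [e, orderOf_one] at h3; omega
  have hσ' : (fun c : F => c ^ q) = σ := (funext hσ).symm
  rcases h2.eq_or_lt with rfl | h2
  · exact (h.hessRow (om_of_order h3) h4 (hσ _)).not_col2
  · have := Fintype.ofFinite F₁
    refine h.monRow.not_col2_of_perfect (zeta_mem_muG hσ h3 h4) h5 (P := suSub F₁ 1 q) ?_
      (fun x hx => ?_) ?_
    · rw [suSub, ← Subgroup.map_commutator,
        SUG_perfect (by rw [← Nat.card_eq_fintype_card, hq]) le_rfl (by omega)]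
    · rw [mem_suSub hq, inv_one, cj_one, hσ'] at hx
      exact h x hx.1 hx.2
    · rw [mem_suSub hq, inv_one, cj_one, hσ']
      exact ⟨det_tS, ur_tS⟩

end URow

end CfsgLib.Mit.Gm
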