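import Mathlib
import Cfsg.Agent.Lib.Mit.GeoRow

/-! Subgroups of `SL₃(q)` containing a Singer cycle.  See `plans/MITCHELL.md`. -/

set_option autoImplicit false

namespace CfsgLib.Mit.Gm

open Matrix Cfsg Cfsg.Geo CfsgLib.Asch
open scoped MatrixGroups commutatorElement

variable {F : Type*} [Field F] {M M' : Subgroup (GL (Fin 3) F)} {x y : GL (Fin 3) F}
  {K K' : Subalgebra F (M3 F)} {n : ℕ}

theorem cubic_orbit {L : Type*} [Field L] {θ : L → L} (hθ : Function.Injective θ) {a b c u : L}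
    (h : ∀ x, x ^ 3 = a * x ^ 2 - b * x + c → θ x ^ 3 = a * θ x ^ 2 - b * θ x + c)
    (hu : u ^ 3 = a * u ^ 2 - b * u + c) : θ u = u ∨ θ (θ u) = u ∨ θ (θ (θ u)) = u := by
  have key : ∀ r s t : L, r ^ 3 = a * r ^ 2 - b * r + c → s ^ 3 = a * s ^ 2 - b * s + c →
      t ^ 3 = a * t ^ 2 - b * t + c → s ≠ r → t ≠ r → t ≠ s → r + s + t = a :=
    fun r s t h1 h2 h3 e1 e2 e3 => by
      apply mul_left_cancel₀ (mul_ne_zero (mul_ne_zero (sub_ne_zero.2 e1) (sub_ne_zero.2 e2))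
        (sub_ne_zero.2 e3))
      linear_combination (t - s) * h1 - (t - r) * h2 + (s - r) * h3
  by_contra hc
  push Not at hc
  obtain ⟨h1, h2, h3⟩ := hc
  have k1 := key _ _ _ hu (h _ hu) (h _ (h _ hu)) h1 h2 (hθ.ne h1)
  have k2 := key _ _ _ hu (h _ hu) (h _ (h _ (h _ hu))) h1 h3 (hθ.ne h2)
  exact hθ.ne (hθ.ne h1) (by linear_combination k2 - k1)

theorem order_dvd_of_smul (hd : (y : M3 F).det = 1) {m : ℕ} {s : F}
    (h : (y : M3 F) ^ m = s • (1 : M3 F)) : orderOf y ∣ 3 * m := by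
  have h1 := congrArg det h
  rw [det_pow, hd, one_pow, det_smul, det_one, mul_one, Fintype.card_fin] at h1
  refine orderOf_dvd_of_pow_eq_one (Units.ext ?_)
  rw [Units.val_pow_eq_pow_val, mul_comm, pow_mul, h, smul_pow, ← h1, one_pow, one_smul,
    Units.val_one]

theorem exists_prime_five (h2 : ¬ 2 ∣ n) (h9 : ¬ 9 ∣ n) (h3 : 3 < n) :
    ∃ l, l.Prime ∧ 5 ≤ l ∧ l ∣ n := by
  by_contra hc
  push Not at hc
  have := Nat.eq_prime_pow_of_unique_prime_dvd (p := 3) (n := n) (by omega) fun {d} hd hdn => by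
    by_contra h
    have h4 := hd.two_le
    have h5 : d < 5 := lt_of_not_ge fun e => hc d hd e hdn
    interval_cases d
    · exact h2 hdn
    · exact h rfl
    · norm_num at hd
  generalize n.primeFactorsList.length = k at this
  subst this
  rcases k with _ | _ | k
  · omega
  · omega
  · exact h9 ⟨3 ^ k, by ring⟩

/-- `M` contains an element of order `n` of the cubic subfield `K` -/
structure KRow (K : Subalgebra F (M3 F)) (n : ℕ) (M : Subgroup (GL (Fin 3) F)) : Prop where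
  field : IsFieldSubalgebra 3 K
  ex : ∃ y ∈ M, (y : M3 F) ∈ K ∧ (y : M3 F).det = 1 ∧ orderOf y = n
  odd : ¬ 2 ∣ n
  nine : ¬ 9 ∣ n
  lt : 3 < n

namespace KRow

theorem mono (h : KRow K n M) (hle : M ≤ M') : KRow K n M' :=
  let ⟨y, hy, e⟩ := h.ex
  ⟨h.field, ⟨y, hle hy, e⟩, h.odd, h.nine, h.lt⟩

theorem exists_prime (h : KRow K n M) : ∃ z ∈ M, ∃ l : ℕ, l.Prime ∧ 5 ≤ l ∧ (z : M3 F) ∈ K ∧
    orderOf z = l ∧ ¬ HasEig z := by
  obtain ⟨y, hy, h1, h2, h3⟩ := h.ex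
  obtain ⟨l, hl, h5, hd⟩ := exists_prime_five h.odd h.nine h.lt
  have h4 : orderOf (y ^ (orderOf y / l)) = l :=
    orderOf_pow_orderOf_div (by rw [h3]; exact (by have := h.lt; omega)) (h3 ▸ hd)
  have h6 : ((y ^ (orderOf y / l) : GL (Fin 3) F) : M3 F) ∈ K := K.pow_mem h1 _
  refine ⟨_, M.pow_mem hy _, l, hl, h5, h6, h4, fun ⟨c, hc⟩ => ?_⟩
  have := order_dvd_of_smul (m := 1) (s := c)
    (mem_specialLinear.1 (pow_mem (mem_specialLinear.2 h2) (orderOf y / l)))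
    (by rw [pow_one]; exact eq_smul_of_eig h.field h6 hc)
  rw [h4] at this
  have := Nat.le_of_dvd (by norm_num) this
  omega

theorem not_col1 (h : KRow K n M) : ¬ Col1 M := fun h1 => by
  obtain ⟨z, hz, -, -, -, -, -, e⟩ := h.exists_prime
  exact e (h1.eig z hz)

theorem not_col2 (h : KRow K n M) : ¬ Col2 M := fun h1 => by
  obtain ⟨z, hz, l, hl, h5, -, h6, e⟩ := h.exists_prime
  exact e (h1.hasEig hz hl h5 (h6 ▸ pow_orderOf_eq_one z))

theorem not_col6 (h : KRow K n M) : ¬ Col6 M := fun h1 => by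
  obtain ⟨z, hz, l, hl, h5, -, h6, -⟩ := h.exists_prime
  have := orderOf_dvd_of_pow_eq_one (h1.pow z hz)
  rw [h6, show 108 = 2 ^ 2 * 3 ^ 3 from rfl] at this
  rcases (Nat.Prime.dvd_mul hl).1 this with e | e <;>
    have := Nat.le_of_dvd (by norm_num) (hl.dvd_of_dvd_pow e) <;> omega

theorem not_colO (h : KRow K n M) (hSL : M ≤ specialLinear (Fin 3) F) :
    ¬ ColF (RingHom.id F) M := fun h1 => by
  obtain ⟨z, hz, -, -, -, -, -, e⟩ := h.exists_prime
  obtain ⟨m, h2, h3⟩ := h1.one z hz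
  exact e (hasEig_of_tr (mem_specialLinear.1 (hSL hz)) h2 h3)

theorem eq_of_le [Finite F] (h : KRow K n M) (hK' : IsFieldSubalgebra 3 K')
    (hle : M ≤ subalgebraNormalizer K') : K' = K := by
  obtain ⟨z, hz, l, hl, h5, h1, h6, e⟩ := h.exists_prime
  have h2 := mem_of_coprime hK' (hle hz) (h6 ▸ pow_orderOf_eq_one z)
    ((Nat.coprime_primes Nat.prime_three hl).2 (by omega))
  have h3 := reg_of_not_scalar h.field h1 fun c hc => e ⟨c, by rw [hc, sub_self, det_zero]⟩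
  have key : ∀ K K' : Subalgebra F (M3 F), IsFieldSubalgebra 3 K → (z : M3 F) ∈ K →
      (z : M3 F) ∈ K' → K ≤ K' := fun K K' hK h1 h2 a ha => by
    obtain ⟨r, s, t, rfl⟩ := h3.eq_poly (hK.comm a ha _ h1)
    exact K'.add_mem (K'.add_mem (K'.smul_mem K'.one_mem r) (K'.smul_mem h2 s))
      (K'.smul_mem (K'.pow_mem h2 2) t)
  exact le_antisymm (key _ _ hK' h2 h1) (key _ _ h.field h1 h2)

theorem dvd_card (h : KRow K n M) : n ∣ Nat.card M := by
  obtain ⟨y, hy, -, -, h3⟩ := h.ex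
  exact h3 ▸ M.orderOf_dvd_natCard hy

theorem dvd_of_col5 [Finite F] (h : KRow K n M) {F₀ : Subfield F} (h5 : Col5 F₀ M) :
    n ∣ 3 * (Nat.card F₀ - 1) ∨ n ∣ 3 * (Nat.card F₀ ^ 2 - 1) ∨ n ∣ 3 * (Nat.card F₀ ^ 3 - 1) := by
  obtain ⟨y, hy, h1, h2, rfl⟩ := h.ex
  obtain ⟨c, hc, h3, h4, h6⟩ := h5.one y hy
  let _ : Field K := (isField_of_isFieldSubalgebra h.field).toField
  obtain ⟨φ, hφ⟩ := exists_frob K (F₀ := F₀) one_ne_zero (pow_one _).symm
  have hfix : ∀ a ∈ F₀, φ (algebraMap F K a) = algebraMap F K a := fun a ha => by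
    rw [hφ, ← map_pow, pow_card_of_mem ha]
  let z : K := c • ⟨y, h1⟩
  have hz : z ^ 3 = algebraMap F K (c * tr y) * z ^ 2 - algebraMap F K (c ^ 2 * tr y⁻¹) * z +
      algebraMap F K (c ^ 3) := by
    rw [← Algebra.smul_def, ← Algebra.smul_def, Algebra.algebraMap_eq_smul_one]
    refine Subtype.ext ?_
    change (c • (y : M3 F)) ^ 3 = (c * tr y) • (c • (y : M3 F)) ^ 2 -
      (c ^ 2 * tr y⁻¹) • (c • (y : M3 F)) + c ^ 3 • (1 : M3 F)
    rw [smul_pow, smul_pow, ch3_gl h2]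
    module
  have hz0 : z ≠ 0 := smul_ne_zero hc fun e => y.ne_zero (congrArg Subtype.val e)
  have key : ∀ N, 0 < N → z ^ N = z → orderOf y ∣ 3 * (N - 1) := fun N hN e => by
    have h7 : z ^ (N - 1) = 1 := mul_right_cancel₀ hz0 (by
      rw [← pow_succ, Nat.sub_add_cancel hN, e, one_mul])
    have h8 : (c • (y : M3 F)) ^ (N - 1) = 1 := congrArg Subtype.val h7
    refine order_dvd_of_smul h2 (s := (c ^ (N - 1))⁻¹) ?_
    rw [← h8, smul_pow, smul_smul, inv_mul_cancel₀ (pow_ne_zero _ hc), one_smul]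
  have hQ : 0 < Nat.card F₀ := Nat.card_pos
  rcases cubic_orbit (θ := φ) φ.injective (fun x hx => by
    have := congrArg φ hx
    rwa [map_add φ, map_sub φ, map_mul φ, map_mul φ, map_pow φ, map_pow φ, hfix _ h4, hfix _ h6,
      hfix _ h3] at this) hz with e | e | e <;> simp only [hφ, ← pow_mul] at e
  · exact Or.inl (key _ hQ e)
  · exact Or.inr (Or.inl (key _ (by positivity) (by rwa [pow_two])))
  · exact Or.inr (Or.inr (key _ (by positivity) (by rwa [pow_three'])))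

theorem dvd_of_colF [Fintype F] (h : KRow K n M) {σ : F →+* F} {q : ℕ}
    (hq : Fintype.card F = q ^ 2) (hσ : ∀ a, σ a = a ^ q) (hF : ColF σ M) :
    n ∣ 3 * (q + 1) ∨ n ∣ 3 * (q ^ 2 - 1) ∨ n ∣ 3 * (q ^ 3 + 1) := by
  obtain ⟨y, hy, h1, h2, rfl⟩ := h.ex
  have h3 := hF.cube y hy
  have h4 := hF.cube _ (M.inv_mem hy)
  rw [inv_pow, inv_inv] at h4
  let _ : Field K := (isField_of_isFieldSubalgebra h.field).toField
  obtain ⟨φ, hφ⟩ := exists_frob K (F₀ := (⊤ : Subfield F)) two_ne_zero (by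
    rw [Nat.card_congr Subfield.topEquiv.toEquiv, Nat.card_eq_fintype_card, hq])
  have hfix : ∀ a, φ (algebraMap F K a) = algebraMap F K (σ a) := fun a => by
    rw [hφ, ← map_pow, hσ]
  have h5 := mem_specialLinear.1 (pow_mem (mem_specialLinear.2 h2) 3)
  have h6 : ((y ^ 3 : GL (Fin 3) F) : M3 F) ∈ K := by
    rw [Units.val_pow_eq_pow_val]
    exact K.pow_mem h1 3
  have h7 : ∀ N, (y ^ 3) ^ N = 1 → orderOf y ∣ 3 * N := fun N e =>
    orderOf_dvd_of_pow_eq_one (by rwa [pow_mul])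
  generalize y ^ 3 = u at *
  let z : K := ⟨u, h6⟩
  have hz : z ^ 3 = algebraMap F K (tr u) * z ^ 2 - algebraMap F K (tr u⁻¹) * z + 1 := by
    rw [← Algebra.smul_def, ← Algebra.smul_def]
    refine Subtype.ext ?_
    change (u : M3 F) ^ 3 = tr u • (u : M3 F) ^ 2 - tr u⁻¹ • (u : M3 F) + 1
    exact ch3_gl h5
  have hz0 : z ≠ 0 := fun e => u.ne_zero (congrArg Subtype.val e)
  have key : ∀ N, z ^ N = 1 → orderOf y ∣ 3 * N := fun N e => h7 N
    (Units.ext (by rw [Units.val_pow_eq_pow_val]; exact congrArg Subtype.val e))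
  have hq0 : 0 < q ^ 2 := hq ▸ Fintype.card_pos
  rcases cubic_orbit (θ := fun x => (φ x)⁻¹) (inv_injective.comp φ.injective) (fun x hx => by
    have h5 : φ x ≠ 0 := (map_ne_zero φ).2 fun e => by simp [e] at hx
    have := congrArg φ hx
    rw [map_add φ, map_sub φ, map_mul φ, map_mul φ, map_pow φ, map_pow φ, hfix, hfix, ← h3, ← h4,
      map_one] at this
    field_simp
    linear_combination -this) hz with e | e | e <;>
    simp only [hφ, inv_pow, inv_inv, ← pow_mul] at e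
  · exact Or.inl (key _ (by rw [pow_succ, inv_eq_iff_eq_inv.1 e, inv_mul_cancel₀ hz0]))
  · exact Or.inr (Or.inl (key _ (mul_right_cancel₀ hz0 (by
      rw [← pow_succ, Nat.sub_add_cancel hq0, pow_two, e, one_mul]))))
  · exact Or.inr (Or.inr (key _ (by
      rw [pow_succ z, pow_three', inv_eq_iff_eq_inv.1 e, inv_mul_cancel₀ hz0])))

end KRow

theorem exists_order [Fintype F] (hK : IsFieldSubalgebra 3 K) {m : ℕ} (hm : m ≠ 0)
    (h : Fintype.card F ^ 3 - 1 = n * m) : ∃ w : GL (Fin 3) F, (w : M3 F) ∈ K ∧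
      orderOf (w ^ m) = n := by
  let _ : Field K := (isField_of_isFieldSubalgebra hK).toField
  have : Finite K := Module.finite_of_finite F
  obtain ⟨g, hg⟩ := IsCyclic.exists_ofOrder_eq_natCard (α := Kˣ)
  rw [Nat.card_units, Module.natCard_eq_pow_finrank (K := F), hK.finrank_eq,
    Nat.card_eq_fintype_card, h] at hg
  let j : Kˣ →* GL (Fin 3) F := Units.map K.val.toMonoidHom
  have hj : Function.Injective j := Units.map_injective Subtype.val_injective
  refine ⟨j g, g.1.2, ?_⟩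
  rw [orderOf_pow' _ hm, orderOf_injective j hj, hg, Nat.gcd_mul_left_left,
    Nat.mul_div_cancel _ (Nat.pos_of_ne_zero hm)]

theorem mem_normalizer_of_mem (hK : IsFieldSubalgebra 3 K) (h : (x : M3 F) ∈ K) :
    x ∈ subalgebraNormalizer K := fun k => by
  obtain ⟨b, hb, e⟩ := hK.inv _ h x.ne_zero
  have h1 : ((x⁻¹ : GL (Fin 3) F) : M3 F) ∈ K := by rwa [Units.inv_eq_of_mul_eq_one_right e]
  refine ⟨fun hk => K.mul_mem (K.mul_mem h hk) h1, fun hk => ?_⟩
  simpa [mul_assoc] using K.mul_mem (K.mul_mem h1 hk) h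

theorem det_pow_eq_one [Fintype F] (w : GL (Fin 3) F) {m : ℕ} (h : Fintype.card F - 1 ∣ m) :
    ((w ^ m : GL (Fin 3) F) : M3 F).det = 1 := by
  obtain ⟨k, rfl⟩ := h
  rw [Units.val_pow_eq_pow_val, det_pow, pow_mul,
    FiniteField.pow_card_sub_one_eq_one _ (isUnits_det_units w).ne_zero, one_pow]

theorem kRow_SL [Fintype F] (hK : IsFieldSubalgebra 3 K) :
    KRow K (Fintype.card F ^ 2 + Fintype.card F + 1)
      (subalgebraNormalizer K ⊓ specialLinear (Fin 3) F) := by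
  have h1 := Fintype.one_lt_card (α := F)
  obtain ⟨w, hw, e⟩ := exists_order hK (n := Fintype.card F ^ 2 + Fintype.card F + 1)
    (m := Fintype.card F - 1) (by omega) (by
      obtain ⟨k, hk⟩ := Nat.exists_eq_add_of_lt h1
      rw [hk]
      simp only [Nat.add_sub_cancel]
      exact Nat.sub_eq_of_eq_add (by ring))
  have hd := det_pow_eq_one w dvd_rfl
  have hm : ((w ^ (Fintype.card F - 1) : GL (Fin 3) F) : M3 F) ∈ K := K.pow_mem hw _
  refine ⟨hK, ⟨_, ⟨mem_normalizer_of_mem hK hm, mem_specialLinear.2 hd⟩, hm, hd, e⟩, ?_, ?_,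
    by nlinarith⟩ <;> generalize Fintype.card F = q
  · rw [← ZMod.natCast_eq_zero_iff]
    push_cast
    generalize (q : ZMod 2) = a
    revert a
    decide
  · rw [← ZMod.natCast_eq_zero_iff]
    push_cast
    generalize (q : ZMod 9) = a
    revert a
    decide

theorem kRow_SU [Fintype F] {q : ℕ} (hF : Fintype.card F = (q + 1) ^ 2) (hq : 2 ≤ q)
    (hK : IsFieldSubalgebra 3 K) (hadj : IsAdjointClosedFor (hermForm 3 F (q + 1)) K) :
    KRow K (q ^ 2 + q + 1) (subalgebraNormalizer K ⊓ SUG 3 F (q + 1)) := by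
  have h0 : (q + 1) ^ 3 - 1 = q * (q ^ 2 + 3 * q + 3) := Nat.sub_eq_of_eq_add (by ring)
  obtain ⟨w, hw, e⟩ := exists_order hK (n := q ^ 2 + q + 1)
    (m := q * (q ^ 2 + 3 * q + 3) * (q + 2)) (by positivity) (by
      rw [hF]
      exact Nat.sub_eq_of_eq_add (by ring))
  have hd := det_pow_eq_one w (m := q * (q ^ 2 + 3 * q + 3) * (q + 2)) (by
    rw [hF, show (q + 1) ^ 2 - 1 = q * (q + 2) from Nat.sub_eq_of_eq_add (by ring)]
    exact ⟨q ^ 2 + 3 * q + 3, by ring⟩)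
  set y := w ^ (q * (q ^ 2 + 3 * q + 3) * (q + 2))
  have hm : (y : M3 F) ∈ K := K.pow_mem hw _
  have hf := isSesq_herm hF 3
  have hGU : y ∈ GU 3 F (q + 1) := (Unitary.mem_GU_iff' _).2 fun u v => by
    rw [hf.adj_spec, (adj_eq_pow hF hf hK hadj).2 _ hm, mulVec_mulVec, ← pow_succ,
      ← Units.val_pow_eq_pow_val, orderOf_dvd_iff_pow_eq_one.1 (e ▸ ⟨q + 2, by ring⟩),
      Units.val_one, one_mulVec]
  refine ⟨hK, ⟨_, ⟨mem_normalizer_of_mem hK hm, hGU, mem_specialLinear.2 hd⟩, hm, hd, e⟩, ?_, ?_,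
    by nlinarith⟩
  · rw [← ZMod.natCast_eq_zero_iff]
    push_cast
    generalize (q : ZMod 2) = a
    revert a
    decide
  · rw [← ZMod.natCast_eq_zero_iff]
    push_cast
    generalize (q : ZMod 9) = a
    revert a
    decide

end CfsgLib.Mit.Gm
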