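import Mathlib
import Cfsg.Agent.Lib.Mit.GeoK
import Cfsg.Agent.Lib.SLCases.Proper
import Cfsg.Agent.S5775

/-! The geometric maximal subgroups of `SL₃(q)`.  See `plans/MITCHELL.md`. -/

set_option autoImplicit false

namespace CfsgLib.Mit.Gm

open Matrix Cfsg Cfsg.Geo CfsgLib.Asch CfsgLib.Unitary
open scoped MatrixGroups commutatorElement

variable {F : Type*} [Field F] {H M : Subgroup (GL (Fin 3) F)} {B : GL (Fin 3) F}

theorem pull_sim {f g : V3 F → V3 F → F} {c : F} (hc : c ≠ 0)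
    (h : ∀ u v, f ((B : M3 F) *ᵥ u) ((B : M3 F) *ᵥ v) = c * g u v) :
    pull B (similarityGroup f) = similarityGroup g := by
  ext x
  refine mem_pull.trans (exists_congr fun d => ⟨fun e u v => mul_left_cancel₀ hc ?_,
    fun e u v => ?_⟩)
  · rw [← h, ← cj_mulVec, ← cj_mulVec, cj_coe, e, h, mul_left_comm]
  · rw [← mulVec_inv_mulVec B u, ← mulVec_inv_mulVec B v, ← cj_coe, cj_mulVec, cj_mulVec, h, h, e,
      mul_left_comm]

theorem pull_quad {Q : V3 F → F} {c : F} (hc : c ≠ 0)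
    (h : ∀ v, Q ((B : M3 F) *ᵥ v) = c * conicQ v) :
    pull B (quadSimilarityGroup Q) = quadSimilarityGroup conicQ := by
  ext x
  refine mem_pull.trans (exists_congr fun d => ⟨fun e v => mul_left_cancel₀ hc ?_, fun e v => ?_⟩)
  · rw [← h, ← cj_mulVec, cj_coe, e, h, mul_left_comm]
  · rw [← mulVec_inv_mulVec B v, ← cj_coe, cj_mulVec, h, h, e, mul_left_comm]

theorem oRow_conic : ORow ⊤ (quadSimilarityGroup conicQ ⊓ specialLinear (Fin 3) F) := fun A _ =>
  ⟨⟨1, fun v => by rw [coe_adjH, conicQ_adj2 (gl2_det_ne A), Units.val_one, one_mul]⟩,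
    mem_specialLinear.2 (det_adj2 (gl2_det_ne A))⟩

theorem pull_inf_SL {X S : Subgroup (GL (Fin 3) F)} (h : pull B X = S) :
    pull B (X ⊓ specialLinear (Fin 3) F) = S ⊓ specialLinear (Fin 3) F := by
  rw [pull_inf, h, pull_SL]

theorem cube_of_type {R : Subgroup (GL (Fin 3) F)} (h : IsSymplecticTypeGroup 3 R) :
    ∀ x ∈ R, x ^ 3 = 1 := fun x hx => by
  have := Monoid.pow_exponent_eq_one (⟨x, hx⟩ : R)
  rw [h.exponent_eq] at this
  exact congrArg Subtype.val this

variable [Fintype F]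

theorem uRow_sim {q : ℕ} (hF : Fintype.card F = q ^ 2) :
    URow ⊤ (conj hF) (similarityGroup (hermForm 3 F q) ⊓ specialLinear (Fin 3) F) :=
  fun x h1 h2 => ⟨⟨1, fun u v => by
    rw [(pres_iff hF _).2 h2.2, Units.val_one, one_mul]⟩, mem_specialLinear.2 h1⟩

theorem exists_pull_unitary {σ : F ≃+* F} {f : V3 F → V3 F → F} (hf : IsUnitaryForm σ f) :
    ∃ (q : ℕ) (B : GL (Fin 3) F), Fintype.card F = q ^ 2 ∧
      pull B (similarityGroup f) = similarityGroup (hermForm 3 F q) := by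
  obtain ⟨q, hF, hσ⟩ := invol_eq_pow (τ := (σ : F →+* F)) hf.involutive (by
    by_contra h
    push Not at h
    exact hf.ne_refl (RingEquiv.ext h))
  have hs : IsSesq (conj hF) 1 f := ⟨conj_conj hF, hf.add_left, hf.smul_left, fun v w => by
    rw [one_mul, hf.herm]; exact hσ _, by simp, hf.nondegenerate⟩
  obtain ⟨l, B, hl, -, e⟩ := exists_ortho hF hs
  refine ⟨q, B, hF, pull_sim (inv_ne_zero hl) fun u v => ?_⟩
  rw [hs.sesq0.eq_gform, gform_mulVec, e, gform_smul, gform_one]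
  rfl

theorem colF_herm {q : ℕ} (hF : Fintype.card F = q ^ 2) :
    ColF (conj hF) (similarityGroup (hermForm 3 F q) ⊓ specialLinear (Fin 3) F) :=
  colF_of_le (isSesq_herm hF 3).sesq0 (isSesq_herm hF 3).nondeg inf_le_left inf_le_right

theorem ColF.of_pull {σ : F →+* F} {S : Subgroup (GL (Fin 3) F)} (h : ColF σ S)
    (e : Gm.pull B M = S) : ColF σ M :=
  have h' := h.pull B⁻¹
  have hle := le_pull_inv e.le
  ⟨fun x hx => h'.one x (hle hx), fun x hx y hy => h'.comm x (hle hx) y (hle hy),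
    fun x hx => h'.cube x (hle hx)⟩

theorem two_ne_zero_of_prime {p : ℕ} (hp : p.Prime) (h : Fintype.card F = p) (h2 : p ≠ 2) :
    (2 : F) ≠ 0 := odd_card_iff.1 (h ▸ hp.odd_of_ne_two h2)

theorem not_prime_of_pow {p Q r : ℕ} (hp : p.Prime) (h : Fintype.card F = p) (hr : 2 ≤ r)
    (h' : Fintype.card F = Q ^ r) : False := by
  have := Nat.Prime.eq_one_of_pow (h' ▸ h ▸ hp)
  omega

/-- the maximal subgroups of `SL₃(q)` in the residual class -/
def ResSL (H : Subgroup (GL (Fin 3) F)) : Prop :=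
  ∃ (P : Subgroup (GL (Fin 3) F)) (p : ℕ), IsResidualCore H P ∧ p.Prime ∧ CharP F p ∧
    H ≤ P ⊔ scalars (Fin 3) F ∧
    ((BarL32 P ∧ Nat.card H ∣ 504 ∧ Fintype.card F = p ∧ p ≠ 2 ∧
        (p % 7 = 1 ∨ p % 7 = 2 ∨ p % 7 = 4)) ∨
     (BarAlt P 6 ∧ H = P ∧ (3 : F) ≠ 0 ∧ ((Fintype.card F = p ∧ (p % 15 = 1 ∨ p % 15 = 4)) ∨
        (Fintype.card F = p ^ 2 ∧ p ≠ 3 ∧ (p % 5 = 2 ∨ p % 5 = 3)))))

/-- the maximal subgroups of `SL₃(q)` with their invariants -/
inductive SLCol (H : Subgroup (GL (Fin 3) F)) : Prop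
  | c1 (h : Col1 H)
  | c2 (hq : 5 ≤ Fintype.card F) (h : Col2 H) (B : GL (Fin 3) F)
      (e : pull B H = monG F ⊓ specialLinear (Fin 3) F)
  | c3 (h : Col3 H) (K : Subalgebra F (M3 F)) (hK : IsFieldSubalgebra 3 K)
      (e : H = subalgebraNormalizer K ⊓ specialLinear (Fin 3) F)
  | c5 (F₀ : Subfield F) (r : ℕ) (hr : r.Prime) (hq : Fintype.card F = Nat.card F₀ ^ r)
      (h : Col5 F₀ H) (B : GL (Fin 3) F)
      (e : pull B H = subfieldSubgroup F₀ 1 ⊓ specialLinear (Fin 3) F)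
  | c6 (p : ℕ) (hp : p.Prime) (hq : Fintype.card F = p) (h2 : (2 : F) ≠ 0) (h : Col6 H)
      (e : ∀ (ω : F) (hω : Om ω),
        ∃ B, pull B H = subgroupNormalizer (stdR hω) ⊓ specialLinear (Fin 3) F)
  | o (h : ColF (RingHom.id F) H) (B : GL (Fin 3) F)
      (e : pull B H = quadSimilarityGroup conicQ ⊓ specialLinear (Fin 3) F)
  | u (q : ℕ) (hF : Fintype.card F = q ^ 2) (h : ColF (conj hF) H) (B : GL (Fin 3) F)
      (e : pull B H = similarityGroup (hermForm 3 F q) ⊓ specialLinear (Fin 3) F)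
  | s1 (p : ℕ) (hp : p.Prime) (hq : Fintype.card F = p) (h11 : 11 ≤ p) (h : Nat.card H ∣ 504)
  | s2 (p : ℕ) (hp : p.Prime) (hc : CharP F p) (hH : QS H) (h : BarAlt H 6)
      (hq : (Fintype.card F = p ∧ 19 ≤ p) ∨ (Fintype.card F = p ^ 2 ∧ (p = 2 ∨ 7 ≤ p)))

theorem slCol (hres : InLinearResidualClass H → ResSL H)
    (hH : IsMaximalIn (specialLinear (Fin 3) F) H) : SLCol H := by
  rcases Cfsg.Agent.S5775.result H hH with ⟨W, h0, h1, rfl⟩ | ⟨hq, D, hD, rfl⟩ | ⟨-, K, hK, rfl⟩ |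
    ⟨F₀, r, P, hr, hq, rfl⟩ | ⟨p, R, hp, hq, h3, hR, rfl⟩ | ⟨-, Q, hQ, rfl⟩ | ⟨σ, f, hf, rfl⟩ | h
  · exact .c1 (col1_of_le h0 h1 inf_le_left)
  · choose b hb h0 using exists_ne_zero_of_decomp hD
    obtain ⟨B, -, hB⟩ := exists_pull_decomp hD hb h0
    exact .c2 hq (col2_of_le hD inf_le_left) B (pull_inf_SL hB)
  · exact .c3 (col3_of_le hK inf_le_left inf_le_right) K hK rfl
  · exact .c5 F₀ r hr hq (col5_of_le inf_le_left inf_le_right) P (pull_inf_SL (pull_subfield _ _))
  · have key := fun (ω : F) (hω : Om ω) =>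
      exists_pull_R hω (span_eq_top_of_absIrred hR.absIrred) (cube_of_type hR.symplecticType)
    obtain ⟨ω, hω⟩ := exists_om (F := F) (by omega)
    obtain ⟨B, hB⟩ := key ω hω
    refine .c6 p hp hq (two_ne_zero_of_prime hp hq (by omega))
      (col6_of_le hω hB inf_le_left inf_le_right) fun ω hω => ?_
    obtain ⟨B, hB⟩ := key ω hω
    exact ⟨B, pull_inf_SL (by rw [pull_normalizer, hB])⟩
  · obtain ⟨B, c, hc, hB⟩ := exists_conic_basis hQ
    exact .o (colF_of_quad hQ inf_le_left inf_le_right) B (pull_inf_SL (pull_quad hc hB))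
  · obtain ⟨q, B, hF, hB⟩ := exists_pull_unitary hf
    exact .u q hF ((colF_herm hF).of_pull (pull_inf_SL hB)) B (pull_inf_SL hB)
  · obtain ⟨P, p, hP, hp, hc, -, ⟨-, h1, h2, h3, h4⟩ | ⟨h1, rfl, -, h2⟩⟩ := hres h
    · refine .s1 p hp h2 ?_ h1
      by_contra
      interval_cases p <;> first | omega | norm_num at hp
    · refine .s2 p hp hc (qs_of_core hP) h1 (h2.imp (And.imp_right fun h => ?_)
        (And.imp_right fun h => ?_))
      · by_contra
        interval_cases p <;> first | omega | norm_num at hp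
      · by_contra hn
        push Not at hn
        obtain ⟨h3, h4⟩ := hn
        interval_cases p <;> first | omega | norm_num at hp

theorem le_of_sq_dvd {a n k : ℕ} (h : a ^ 2 ∣ n) (hn : 0 < n) (hk : n < k ^ 2) : a < k :=
  lt_of_pow_lt_pow_left₀ 2 (Nat.zero_le _) ((Nat.le_of_dvd hn h).trans_lt hk)

theorem le_six_of_504 {a : ℕ} (h : a ^ 2 ∣ 504) : a ∣ 6 := by
  have := le_of_sq_dvd h (by norm_num) (k := 23) (by norm_num)
  interval_cases a <;> omega

theorem le_six_of_1080 {a : ℕ} (h : a ^ 2 ∣ 1080) : a ∣ 6 := by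
  have := le_of_sq_dvd h (by norm_num) (k := 33) (by norm_num)
  interval_cases a <;> omega

namespace SLCol

theorem eq_c2 (hc : SLCol H) (hle : M ≤ H) (hq : 5 ≤ Fintype.card F)
    (e : pull B M = monG F ⊓ specialLinear (Fin 3) F) : H = M := by
  have hr := monRow_monG.mono (e ▸ pull_mono B hle)
  obtain ⟨ζ, h1, -⟩ := exists_zeta (F₁ := (⊤ : Subfield F)) dvd_rfl
  rw [card_top] at h1
  have h2 := sq_ne_one_of_order (ζ := ζ) (by omega)
  have h3 := hr.order_sq_dvd (Subgroup.mem_top ζ)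
  rw [card_pull, h1] at h3
  cases hc with
  | c1 h => exact absurd (env_top_of_pull (hr.env_top (Subgroup.mem_top ζ) h2)) h.env_ne
  | c2 _ _ B' e' => exact eq_of_pull hle (e.trans e'.symm)
  | c3 h => exact absurd (h.pull B) hr.not_col3
  | c5 F₀ r hr' hq' h =>
    refine absurd (fun a _ => ?_) (ne_top_of_card hr' hq')
    by_cases ha : a = 0
    exacts [ha ▸ F₀.zero_mem, hr.mem_of_col5 (h.pull B) (Subgroup.mem_top (Units.mk0 a ha))]
  | c6 _ _ _ h2 h => exact absurd (h.pull B) (hr.not_col6 (Subgroup.mem_top _) h2)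
  | o h =>
    refine absurd (Units.ext ?_) h2
    have : (ζ : F) = (ζ : F)⁻¹ := hr.map_of_colF (h.pull B) (Subgroup.mem_top ζ)
    rw [Units.val_pow_eq_pow_val, pow_two, Units.val_one, mul_eq_one_iff_eq_inv₀ ζ.ne_zero, ← this]
  | u q hF h =>
    have h4 : ζ ^ (q + 1) = 1 := Units.ext (by
      rw [Units.val_pow_eq_pow_val, pow_succ, ← conj_apply hF,
        hr.map_of_colF (h.pull B) (Subgroup.mem_top ζ), inv_mul_cancel₀ ζ.ne_zero, Units.val_one])
    have h5 := Nat.le_of_dvd (by omega) (orderOf_dvd_of_pow_eq_one h4)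
    rw [h1] at h5
    have : q ^ 2 ≤ q + 2 := by omega
    have : q ≤ 2 := by nlinarith
    interval_cases q <;> omega
  | s1 p _ hp h11 h =>
    have := Nat.le_of_dvd (by norm_num) (le_six_of_504 (h3.trans h))
    omega
  | s2 p hp _ hH h hq' =>
    have h4 := le_six_of_1080 (h3.trans (card_dvd_1080 hH h))
    have := Nat.le_of_dvd (by norm_num) h4
    rcases hq' with ⟨h5, h6⟩ | ⟨h5, rfl | h6⟩
    · omega
    · omega
    · have := Nat.pow_le_pow_left h6 2
      omega

theorem eq_c3 (hc : SLCol H) (hSL : H ≤ specialLinear (Fin 3) F) {K : Subalgebra F (M3 F)}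
    (hK : IsFieldSubalgebra 3 K) (hq : Fintype.card F ≠ 4)
    (hle : subalgebraNormalizer K ⊓ specialLinear (Fin 3) F ≤ H) :
    H = subalgebraNormalizer K ⊓ specialLinear (Fin 3) F := by
  have hr := (kRow_SL hK).mono hle
  have h1 := Fintype.one_lt_card (α := F)
  cases hc with
  | c1 h => exact absurd h hr.not_col1
  | c2 _ h => exact absurd h hr.not_col2
  | c3 _ K' hK' e => rw [e, hr.eq_of_le hK' (e.le.trans inf_le_left)]
  | c5 F₀ r hr' hq' h =>
    exfalso
    have h2 := two_le_card F₀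
    have h3 := hr'.two_le
    have h4 := hr.dvd_of_col5 h
    generalize Nat.card F₀ = Q at *
    have h5 : Q ≤ Q ^ 2 := Nat.le_self_pow two_ne_zero Q
    have h6 : Q ^ 2 ≤ Q ^ 3 := Nat.pow_le_pow_right (by omega) (by omega)
    have h7 : Fintype.card F ^ 2 + Fintype.card F + 1 ≤ 3 * Q ^ 3 := by
      rcases h4 with h | h | h <;> have := Nat.le_of_dvd (by omega) h <;> omega
    rcases h2.eq_or_lt with rfl | h2
    · have : 2 ^ 3 ≤ 2 ^ r := Nat.pow_le_pow_right (by norm_num) (by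
        by_contra
        obtain rfl : r = 2 := by omega
        omega)
      nlinarith
    · have h8 : Q ^ 2 ≤ Fintype.card F := hq' ▸ Nat.pow_le_pow_right (by omega) h3
      have h9 := Nat.pow_le_pow_left h8 2
      have : 3 * Q ^ 3 ≤ (Q ^ 2) ^ 2 := by
        rw [show (Q ^ 2) ^ 2 = Q * Q ^ 3 by ring]
        exact Nat.mul_le_mul_right _ h2
      omega
  | c6 _ _ _ _ h => exact absurd h hr.not_col6
  | o h => exact absurd h (hr.not_colO hSL)
  | u q hF h =>
    exfalso
    have h4 := hr.dvd_of_colF hF (conj_apply hF) h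
    have h2 : 3 ≤ q := by
      by_contra
      interval_cases q <;> omega
    have h5 : q ≤ q ^ 2 := Nat.le_self_pow two_ne_zero q
    have h6 : q ^ 2 ≤ q ^ 3 := Nat.pow_le_pow_right (by omega) (by omega)
    have h7 : Fintype.card F ^ 2 + Fintype.card F + 1 ≤ 3 * q ^ 3 + 3 := by
      rcases h4 with h | h | h <;> have := Nat.le_of_dvd (by omega) h <;> omega
    have : 3 * q ^ 3 ≤ (q ^ 2) ^ 2 := by
      rw [show (q ^ 2) ^ 2 = q * q ^ 3 by ring]
      exact Nat.mul_le_mul_right _ h2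
    rw [hF] at h7
    omega
  | s1 p _ hp h11 h =>
    exfalso
    have h2 := hr.dvd_card.trans h
    rw [hp] at h2
    have h3 := Nat.le_of_dvd (by norm_num) h2
    have : p ≤ 22 := by nlinarith
    interval_cases p <;> omega
  | s2 p _ _ hH h =>
    exfalso
    have h2 := hr.dvd_card.trans (card_dvd_1080 hH h)
    generalize Fintype.card F = q at h1 h2
    have h3 := Nat.le_of_dvd (by norm_num) h2
    have : q ≤ 33 := by nlinarith
    interval_cases q <;> omega

theorem eq_c5 (hc : SLCol H) (hle : M ≤ H) {F₀ : Subfield F} {r : ℕ} (hr' : r.Prime)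
    (hq : Fintype.card F = Nat.card F₀ ^ r)
    (e : pull B M = subfieldSubgroup F₀ 1 ⊓ specialLinear (Fin 3) F) : H = M := by
  have hr := (slRow_subfield F₀).mono (e ▸ pull_mono B hle)
  cases hc with
  | c1 h => exact absurd (env_top_of_pull hr.env_top) h.env_ne
  | c2 _ h => exact absurd (h.pull B) hr.not_col2
  | c3 h => exact absurd (h.pull B) hr.not_col3
  | c5 F₁ r' hr'' hq' h B' e' =>
    obtain ⟨rfl, -⟩ := eq_of_prime_index (hr.le_of_col5 (h.pull B)) hr' hr'' hq hq'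
    exact eq_of_pull hle (e.trans e'.symm)
  | c6 p hp hq' => exact (not_prime_of_pow hp hq' hr'.two_le hq).elim
  | o h => exact absurd (h.pull B) (hr.not_colF _)
  | u q hF h => exact absurd (h.pull B) (hr.not_colF _)
  | s1 p hp hq' => exact (not_prime_of_pow hp hq' hr'.two_le hq).elim
  | s2 p hp _ hH h hq' =>
    exfalso
    have h1 := card_dvd_1080 hH h
    rw [← card_pull B] at h1
    rcases hq' with ⟨h5, -⟩ | ⟨h5, rfl | h6⟩
    · exact not_prime_of_pow hp h5 hr'.two_le hq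
    · have := (hr.seven_dvd (by exact_mod_cast CharP.cast_eq_zero F 2)).trans h1
      omega
    · have h2 : p ∣ Nat.card F₀ := hp.dvd_of_dvd_pow (hq ▸ h5 ▸ dvd_pow_self p two_ne_zero)
      have := Nat.le_of_dvd (by norm_num) (h2.trans (le_six_of_1080 (hr.card_dvd.trans h1)))
      omega

theorem eq_c6 (hc : SLCol H) (hle : M ≤ H) {p : ℕ} (hp : p.Prime) (hq : Fintype.card F = p)
    {ω : F} (hω : Om ω) (e : pull B M = subgroupNormalizer (stdR hω) ⊓ specialLinear (Fin 3) F) :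
    H = M := by
  have hr := ((hessRow_normalizer hω).inf (hessRow_SL hω)).mono (e ▸ pull_mono B hle)
  cases hc with
  | c1 h => exact absurd (env_top_of_pull hr.env_top) h.env_ne
  | c2 _ h => exact absurd (h.pull B) hr.not_col2
  | c3 h => exact absurd (h.pull B) hr.monRow.not_col3
  | c5 F₁ r' hr' hq' => exact (not_prime_of_pow hp hq hr'.two_le hq').elim
  | c6 _ _ _ _ _ e' =>
    obtain ⟨B', e'⟩ := e' ω hω
    exact eq_of_pull hle (e.trans e'.symm)
  | o h =>
    refine absurd ?_ hω.sq_ne_one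
    have : ω = ω⁻¹ := hr.monRow.map_of_colF (h.pull B) (mk0_mem_roots hω)
    rw [pow_two, mul_eq_one_iff_eq_inv₀ hω.ne_zero, ← this]
  | u q hF h => exact (not_prime_of_pow hp hq le_rfl hF).elim
  | s1 _ _ _ _ h =>
    have := (Subgroup.card_dvd_of_le hr.le).trans (card_pull B H ▸ h)
    rw [card_stdR] at this
    omega
  | s2 _ _ _ hH h => exact absurd hr (not_hessRow hH h)

theorem eq_o (hc : SLCol H) (hle : M ≤ H) (hq : Odd (Fintype.card F))
    (e : pull B M = quadSimilarityGroup conicQ ⊓ specialLinear (Fin 3) F) : H = M := by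
  have hr := oRow_conic.mono (e ▸ pull_mono B hle)
  have h2 := odd_card_iff.1 hq
  have h3 := hr.card_dvd
  rw [card_top, card_pull] at h3
  rw [Nat.odd_iff] at hq
  cases hc with
  | c1 h => exact absurd (env_top_of_pull (hr.env_top h2)) h.env_ne
  | c2 h5 h =>
    have h4 := hr.dvd_six (h.pull B)
    rw [card_top] at h4
    have := Nat.le_of_dvd (by norm_num) h4
    generalize Fintype.card F = n at *
    interval_cases n <;> omega
  | c3 h => exact absurd (h.pull B) hr.not_col3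
  | c5 F₁ r' hr' hq' h => exact absurd (hr.le_of_col5 (h.pull B)) (ne_top_of_card hr' hq')
  | c6 _ _ _ _ h => exact absurd (h.pull B) (hr.not_col6 h2)
  | o _ B' e' => exact eq_of_pull hle (e.trans e'.symm)
  | u q hF h =>
    exact absurd (RingHom.ext fun a => hr.map_of_colF h2 (h.pull B) (Subfield.mem_top a))
      (conj_ne_id hF)
  | s1 p hp hq' h11 h =>
    have h4 := h3.trans h
    rw [hq', show 504 = 2 ^ 3 * (3 ^ 2 * 7) from rfl, hp.dvd_mul, hp.dvd_mul] at h4
    rcases h4 with h | h | h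
    · have := Nat.le_of_dvd (by norm_num) (hp.dvd_of_dvd_pow h)
      omega
    · have := Nat.le_of_dvd (by norm_num) (hp.dvd_of_dvd_pow h)
      omega
    · have := Nat.le_of_dvd (by norm_num) h
      omega
  | s2 p hp _ hH h hq' =>
    have h4 := h3.trans (card_dvd_1080 hH h)
    rcases hq' with ⟨h5, h6⟩ | ⟨h5, rfl | h6⟩
    · rw [h5, show 1080 = 2 ^ 3 * (3 ^ 3 * 5) from rfl, hp.dvd_mul, hp.dvd_mul] at h4
      rcases h4 with h | h | h
      · have := Nat.le_of_dvd (by norm_num) (hp.dvd_of_dvd_pow h)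
        omega
      · have := Nat.le_of_dvd (by norm_num) (hp.dvd_of_dvd_pow h)
        omega
      · have := Nat.le_of_dvd (by norm_num) h
        omega
    · omega
    · have := Nat.le_of_dvd (by norm_num) (le_six_of_1080 (h5 ▸ h4))
      omega

theorem eq_u (hc : SLCol H) (hle : M ≤ H) {q : ℕ} (hF : Fintype.card F = q ^ 2)
    (e : pull B M = similarityGroup (hermForm 3 F q) ⊓ specialLinear (Fin 3) F) : H = M := by
  have hr := (uRow_sim hF).mono (e ▸ pull_mono B hle)
  have h0 := card_top.trans hF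
  obtain ⟨h1, ζ, h2, h3⟩ := exists_zeta' h0
  have h4 := zeta_mem_muG (conj_apply hF) h2 h3
  have h5 := sq_ne_one_of_order (ζ := ζ) (by omega)
  cases hc with
  | c1 h => exact absurd (env_top_of_pull (hr.monRow.env_top h4 h5)) h.env_ne
  | c2 _ h => exact absurd (h.pull B) (hr.not_col2 h0 (conj_apply hF))
  | c3 h => exact absurd (h.pull B) hr.monRow.not_col3
  | c5 F₁ r' hr' hq' h =>
    exact absurd (le_of_zeta h0 h2 h3 (hr.monRow.mem_of_col5 (h.pull B) h4))
      (ne_top_of_card hr' hq')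
  | c6 p hp hq' => exact (not_prime_of_pow hp hq' le_rfl hF).elim
  | o h =>
    refine absurd (Units.ext ?_) h5
    have : (ζ : F) = (ζ : F)⁻¹ := hr.monRow.map_of_colF (h.pull B) h4
    rw [Units.val_pow_eq_pow_val, pow_two, Units.val_one, mul_eq_one_iff_eq_inv₀ ζ.ne_zero, ← this]
  | u q' hF' _ B' e' =>
    obtain rfl : q = q' := Nat.pow_left_injective two_ne_zero (hF.symm.trans hF')
    exact eq_of_pull hle (e.trans e'.symm)
  | s1 p hp hq' => exact (not_prime_of_pow hp hq' le_rfl hF).elim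
  | s2 p hp _ hH h hq' =>
    rcases hq' with ⟨h6, -⟩ | ⟨h6, h7⟩
    · exact (not_prime_of_pow hp h6 le_rfl hF).elim
    obtain rfl : q = p := Nat.pow_left_injective two_ne_zero (hF.symm.trans h6)
    rcases h7 with rfl | h7
    · exact absurd (hr.hessRow (om_of_order h2) h3 rfl) (not_hessRow hH h)
    · have := Nat.le_of_dvd (by norm_num) (le_six_of_1080
        ((hr.monRow.order_sq_dvd h4).trans (card_pull B H ▸ card_dvd_1080 hH h)))
      omega

end SLCol

theorem isMaximalIn_SL (hres : ∀ H, IsMaximalIn (specialLinear (Fin 3) F) H →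
      InLinearResidualClass H → ResSL H) {X : Subgroup (GL (Fin 3) F)}
    (h1 : ¬ specialLinear (Fin 3) F ≤ X)
    (h2 : ∀ H, SLCol H → H ≤ specialLinear (Fin 3) F → X ⊓ specialLinear (Fin 3) F ≤ H →
      H = X ⊓ specialLinear (Fin 3) F) :
    IsMaximalIn (specialLinear (Fin 3) F) (X ⊓ specialLinear (Fin 3) F) :=
  have := finite_gl (F := F)
  isMaximalIn_of_forall inf_le_right (fun h => h1 (h.trans inf_le_left)) fun H hH =>
    h2 H (slCol (hres H hH) hH) hH.1.le

theorem geo_sl (hres : ∀ H, IsMaximalIn (specialLinear (Fin 3) F) H →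
      InLinearResidualClass H → ResSL H) :
    (5 ≤ Fintype.card F → ∀ D : Fin 3 → Submodule F (Fin 3 → F), IsMDecomposition 1 D →
      IsMaximalIn (specialLinear (Fin 3) F) (decompositionStabilizer D ⊓ specialLinear (Fin 3) F)) ∧
    (Fintype.card F ≠ 4 → ∀ K : Subalgebra F (Matrix (Fin 3) (Fin 3) F), IsFieldSubalgebra 3 K →
      IsMaximalIn (specialLinear (Fin 3) F) (subalgebraNormalizer K ⊓ specialLinear (Fin 3) F)) ∧
    (∀ (F₀ : Subfield F) (r : ℕ) (P : GL (Fin 3) F), r.Prime →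
      Fintype.card F = Nat.card F₀ ^ r →
      IsMaximalIn (specialLinear (Fin 3) F) (subfieldSubgroup F₀ P ⊓ specialLinear (Fin 3) F)) ∧
    (∀ (p : ℕ) (R : Subgroup (GL (Fin 3) F)), p.Prime → Fintype.card F = p → p % 3 = 1 →
      IsLinearSymplecticTypeData 3 R →
      IsMaximalIn (specialLinear (Fin 3) F) (subgroupNormalizer R ⊓ specialLinear (Fin 3) F)) ∧
    (Odd (Fintype.card F) → ∀ Q : (Fin 3 → F) → F, IsNondegenerateQuadraticForm Q →
      IsMaximalIn (specialLinear (Fin 3) F) (quadSimilarityGroup Q ⊓ specialLinear (Fin 3) F)) ∧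
    (∀ (σ : F ≃+* F) (f : (Fin 3 → F) → (Fin 3 → F) → F), IsUnitaryForm σ f →
      IsMaximalIn (specialLinear (Fin 3) F) (similarityGroup f ⊓ specialLinear (Fin 3) F)) := by
  refine ⟨fun hq D hD => ?_, fun hq K hK => ?_, fun F₀ r P hr hq => ?_,
    fun p R hp hq h3 hR => ?_, fun hq Q hQ => ?_, fun σ f hf => ?_⟩
  · choose b hb h0 using exists_ne_zero_of_decomp hD
    obtain ⟨B, -, hB⟩ := exists_pull_decomp hD hb h0
    exact isMaximalIn_SL hres (SLCases.not_le_decomp hD) fun H hc _ hle =>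
      hc.eq_c2 hle hq (pull_inf_SL hB)
  · exact isMaximalIn_SL hres (SLCases.not_le_field (by simp) (by norm_num) hK)
      fun H hc hSL hle => hc.eq_c3 hSL hK hq hle
  · exact isMaximalIn_SL hres (SLCases.not_le_subfield (by simp) hr hq P) fun H hc _ hle =>
      hc.eq_c5 hle hr hq (pull_inf_SL (pull_subfield _ _))
  · obtain ⟨ω, hω⟩ := exists_om (F := F) (by omega)
    obtain ⟨B, hB⟩ :=
      exists_pull_R hω (span_eq_top_of_absIrred hR.absIrred) (cube_of_type hR.symplecticType)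
    exact isMaximalIn_SL hres (SLCases.not_le_extra (by simp) hR) fun H hc _ hle =>
      hc.eq_c6 hle hp hq hω (pull_inf_SL (B := B) (by rw [pull_normalizer, hB]))
  · obtain ⟨B, c, hc, hB⟩ := exists_conic_basis hQ
    exact isMaximalIn_SL hres (SLCases.not_le_quad (by simp) hQ) fun H hc' _ hle =>
      hc'.eq_o hle hq (pull_inf_SL (pull_quad hc hB))
  · obtain ⟨q, B, hF, hB⟩ := exists_pull_unitary hf
    exact isMaximalIn_SL hres (SLCases.not_le_unitary (by simp) hf) fun H hc _ hle =>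
      hc.eq_u hle hF (pull_inf_SL hB)

end CfsgLib.Mit.Gm
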