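import Mathlib
import Cfsg.Agent.Lib.Mit.GeoSL
import Cfsg.Agent.Lib.Asch.SUNorm

/-! The stabiliser of a non-isotropic point is maximal in `SU₃(q)`, and normal forms for the
geometric subgroups of `SU₃(q)`.  See `plans/MITCHELL.md`. -/

set_option autoImplicit false

namespace CfsgLib.Mit.Gm

open Matrix Cfsg Cfsg.Geo CfsgLib.Asch CfsgLib.Unitary
open scoped MatrixGroups commutatorElement

variable {F : Type*} [Field F] {M X : Subgroup (GL (Fin 3) F)} {B x g : GL (Fin 3) F}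

theorem pull_mul (B C : GL (Fin 3) F) (M : Subgroup (GL (Fin 3) F)) :
    pull (B * C) M = pull C (pull B M) := by
  ext x
  simp only [mem_pull, _root_.mul_inv_rev, mul_assoc]

theorem pull_of_mem (h : B ∈ M) : pull B M = M := by
  ext x
  rw [mem_pull, M.mul_mem_cancel_right (inv_mem h), M.mul_mem_cancel_left h]

theorem le_of_pull (h : pull B M ≤ pull B X) : M ≤ X := by
  rw [← map_pull B M, ← map_pull B X]
  exact Subgroup.map_mono h

/-- the isometries of `f` of determinant one -/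
abbrev isoS (f : V3 F → V3 F → F) : Subgroup (GL (Fin 3) F) :=
  preserving (Units.coeHom (M3 F)) f ⊓ specialLinear (Fin 3) F

theorem pull_isoS {f f' : V3 F → V3 F → F} {c : F} (hc : c ≠ 0)
    (h : ∀ u v, f ((B : M3 F) *ᵥ u) ((B : M3 F) *ᵥ v) = c * f' u v) :
    pull B (isoS f) = isoS f' := by
  refine pull_inf_SL (Subgroup.ext fun x => mem_pull.trans
    ⟨fun e u v => mul_left_cancel₀ hc ?_, fun e u v => ?_⟩)
  · rw [← h, ← h, ← e ((B : M3 F) *ᵥ u), Units.coeHom_apply, Units.coeHom_apply, ← cj_coe,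
      cj_mulVec, cj_mulVec]
  · rw [← mulVec_inv_mulVec B u, ← mulVec_inv_mulVec B v, Units.coeHom_apply, ← cj_coe, cj_mulVec,
      cj_mulVec, h, h]
    exact congrArg _ (e _ _)

theorem mem_stab_span {w : V3 F} (hw : w ≠ 0) :
    g ∈ subspaceStabilizer (Submodule.span F {w}) ↔ ∃ s : F, s • w = (g : M3 F) *ᵥ w := by
  refine ⟨fun h => Submodule.mem_span_singleton.1 ((mem_subspaceStabilizer_iff.1 h w).1
    (Submodule.mem_span_singleton_self w)), fun ⟨s, hs⟩ => ?_⟩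
  have h0 : s ≠ 0 := by
    rintro rfl
    exact hw (by rw [← inv_mulVec_mulVec g w, ← hs, zero_smul, mulVec_zero])
  refine mem_subspaceStabilizer_iff.2 fun v => ?_
  simp only [Submodule.mem_span_singleton]
  refine ⟨fun ⟨a, ha⟩ => ⟨a * s, by rw [← ha, mulVec_smul, ← hs, smul_smul]⟩,
    fun ⟨a, ha⟩ => ⟨a / s, ?_⟩⟩
  rw [← inv_mulVec_mulVec g v, ← ha, ← inv_mulVec_mulVec g (_ • w), mulVec_smul (g : M3 F), ← hs,
    smul_smul, div_mul_cancel₀ _ h0]

theorem mem_pull_stab : x ∈ pull B (subspaceStabilizer (Submodule.span F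
    {(B : M3 F) *ᵥ Pi.single 0 1})) ↔ (x : M3 F) 1 0 = 0 ∧ (x : M3 F) 2 0 = 0 := by
  have h0 : (B : M3 F) *ᵥ Pi.single 0 1 ≠ 0 := fun h => by
    have := inv_mulVec_mulVec B (Pi.single 0 1)
    rw [h, mulVec_zero] at this
    simpa using congrFun this 0
  rw [mem_pull, mem_stab_span h0, ← cj_coe, cj_mulVec]
  constructor
  · rintro ⟨s, hs⟩
    have := congrArg (((B⁻¹ : GL (Fin 3) F) : M3 F) *ᵥ ·) hs
    simp only [← mulVec_smul, inv_mulVec_mulVec] at this
    exact ⟨by simpa using (congrFun this 1).symm, by simpa using (congrFun this 2).symm⟩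
  · rintro ⟨h1, h2⟩
    refine ⟨(x : M3 F) 0 0, ?_⟩
    rw [← mulVec_smul]
    congr 1
    ext i
    fin_cases i <;> simp [h1, h2]

variable [Fintype F] {q : ℕ}

theorem pull_SUG {c : F} (hc : c ≠ 0) (h : ∀ u v, hermForm 3 F q ((B : M3 F) *ᵥ u)
    ((B : M3 F) *ᵥ v) = c * hermForm 3 F q u v) : pull B (SUG 3 F q) = SUG 3 F q :=
  pull_isoS hc h

theorem pull_SUG' (h : B ∈ GU 3 F q) : pull B (SUG 3 F q) = SUG 3 F q :=
  pull_SUG one_ne_zero fun u v => (h u v).trans (one_mul _).symm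

/-- all transvections with centre `v` lie in `X` -/
def TvIn (hF : Fintype.card F = q ^ 2) (X : Subgroup (GL (Fin 3) F)) (v : V3 F) : Prop :=
  ∀ hv c hc, tvU hF v hv c hc ∈ X

variable {hF : Fintype.card F = q ^ 2} {v : V3 F}

theorem TvIn.map (h : TvIn hF X v) (hx : x ∈ X) (hx' : x ∈ GU 3 F q) :
    TvIn hF X ((x : M3 F) *ᵥ v) := fun hv c hc => by
  replace hx' := (mem_GU_iff' x).1 hx'
  have e : tvU hF _ hv c hc = x * tvU hF v (hx' v v ▸ hv) c hc * x⁻¹ := by
    rw [eq_mul_inv_iff_mul_eq]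
    refine Units.ext (ext_iff_mulVec.2 fun u => ?_)
    rw [Units.val_mul, Units.val_mul, ← mulVec_mulVec, ← mulVec_mulVec, tvU_mulVec, tvU_mulVec,
      hx', mulVec_add, mulVec_smul]
  exact e ▸ X.mul_mem (X.mul_mem hx (h _ _ _)) (inv_mem hx)

theorem TvIn.smul (h : TvIn hF X v) {s : F} (hs : s ≠ 0) : TvIn hF X (s • v) := fun hv c hc => by
  have hv' : hermForm 3 F q v v = 0 := by
    rw [herm_smul_left, herm_smul_right] at hv
    simpa [hs] using hv
  have e : tvU hF _ hv c hc = tvU hF v hv' (c * s ^ (q + 1))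
      (by rw [mul_pow, norm_pow_q hF, ← add_mul, hc, zero_mul]) :=
    Units.ext (ext_iff_mulVec.2 fun u => by
      rw [tvU_mulVec, tvU_mulVec, herm_smul_right, smul_smul]
      congr 2
      ring)
  exact e ▸ h _ _ _

theorem exists_blk_SU (hF : Fintype.card F = q ^ 2) {l : F} (hl : l ^ (q + 1) = -1)
    (hv : hermForm 3 F q v v = 0) (h0 : v 0 ≠ 0) :
    ∃ U ∈ SUG 3 F q, (U : M3 F) 1 0 = 0 ∧ (U : M3 F) 2 0 = 0 ∧
      (U : M3 F) *ᵥ (v 0 • ![1, l, 0]) = v := by
  have hl0 : l ≠ 0 := by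
    rintro rfl
    simp at hl
  obtain ⟨a, ha⟩ : ∃ a, l * v 0 * a = v 1 := ⟨_, mul_div_cancel₀ _ (mul_ne_zero hl0 h0)⟩
  obtain ⟨b, hb⟩ : ∃ b, l * v 0 * b = v 2 := ⟨_, mul_div_cancel₀ _ (mul_ne_zero hl0 h0)⟩
  have h1 : a * conj hF a + b * conj hF b = 1 := by
    rw [herm_def, Fin.sum_univ_three, ← ha, ← hb] at hv
    refine mul_left_cancel₀ (pow_ne_zero (q + 1) h0) ?_
    simp only [conj_apply, mul_pow, pow_succ] at hv hl ⊢
    linear_combination (v 0 ^ q * v 0 * (a * a ^ q + b * b ^ q)) * hl - hv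
  have hd : (!![1, 0, 0; 0, a, -conj hF b; 0, b, conj hF a] : M3 F).det = 1 := by
    simp [det_fin_three]
    linear_combination h1
  refine ⟨gl _ hd, ⟨(mem_GU_iff hF _).2 ?_, mem_specialLinear.2 hd⟩, rfl, rfl, ?_⟩
  · ext i j
    fin_cases i <;> fin_cases j <;>
      simp [coe_gl, mul_apply, Fin.sum_univ_three, conj_conj] <;>
      first | ring1 | linear_combination h1
  · ext i
    fin_cases i <;> simp [coe_gl, mulVec, dotProduct, Fin.sum_univ_three, ← ha, ← hb] <;> ring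

theorem SUG_le_of_stab (hF : Fintype.card F = q ^ 2) (hq : q ≠ 2)
    (hN : ∀ x ∈ SUG 3 F q, (x : M3 F) 1 0 = 0 → (x : M3 F) 2 0 = 0 → x ∈ X) (hg : g ∈ X)
    (hg' : g ∈ GU 3 F q) (h : ¬ ((g : M3 F) 1 0 = 0 ∧ (g : M3 F) 2 0 = 0)) : SUG 3 F q ≤ X := by
  have h1 : ∀ v : V3 F, v 0 = 0 → TvIn hF X v := fun v h0 hv c hc =>
    hN _ (tvU_mem hF v hv c hc)
      (by simp [coe_tvU, unitaryTransvection, vecMulVec_apply, h0, q_ne_zero hF])
      (by simp [coe_tvU, unitaryTransvection, vecMulVec_apply, h0, q_ne_zero hF])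
  obtain ⟨l, l', -, hll, -, -, hl, hl', -⟩ := exists_three_norm_eq hF (μ := -1) (by simp)
    (by rw [neg_pow_q hF, one_pow])
  have h2 : ∀ l : F, l ^ (q + 1) = -1 → hermForm 3 F q ![0, 1, l] ![0, 1, l] = 0 := fun l hl => by
    rw [herm_def, Fin.sum_univ_three]
    simp [← pow_succ', hl]
  obtain ⟨w, hw, hw0, hw1⟩ : ∃ w : V3 F, hermForm 3 F q w w = 0 ∧ w 0 = 0 ∧
      ((g : M3 F) *ᵥ w) 0 ≠ 0 := by
    by_contra hcon
    push Not at hcon
    have e1 := hcon _ (h2 l hl) rfl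
    have e2 := hcon _ (h2 l' hl') rfl
    simp only [mulVec, dotProduct, Fin.sum_univ_three, cons_val_zero, cons_val_one, cons_val_two,
      tail_cons, head_cons, mul_zero, mul_one, zero_add] at e1 e2
    have e3 : (g : M3 F) 0 2 = 0 :=
      (mul_eq_zero.1 (show _ * (l - l') = 0 by linear_combination e1 - e2)).resolve_right
        (sub_ne_zero.2 hll)
    rw [e3, zero_mul, add_zero] at e1
    have e0 := mul_eq_one_comm.1 ((mem_GU_iff hF g).1 hg')
    have e4 := fun i => congrFun (congrFun e0 i) 0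
    simp only [mul_apply, Fin.sum_univ_three, transpose_apply, map_apply, e1, e3, mul_zero,
      add_zero] at e4
    have e5 : (g : M3 F) 0 0 ≠ 0 := fun e => by simpa [e] using e4 0
    exact h ⟨by simpa [e5] using e4 1, by simpa [e5] using e4 2⟩
  have h3 : TvIn hF X ![1, l, 0] := by
    obtain ⟨U, hU, u1, u2, e⟩ := exists_blk_SU hF hl (((mem_GU_iff' g).1 hg' w w).trans hw) hw1
    have := (((h1 w hw0).map hg hg').map (inv_mem (hN U hU u1 u2)) (inv_mem hU.1)).smul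
      (inv_ne_zero hw1)
    rwa [← e, inv_mulVec_mulVec, e, inv_smul_smul₀ hw1] at this
  refine SUG_le_of_tv hF le_rfl (by omega) fun v hv c hc _ => ?_
  by_cases h0 : v 0 = 0
  · exact h1 v h0 hv c hc
  obtain ⟨U, hU, u1, u2, e⟩ := exists_blk_SU hF hl hv h0
  have := (h3.smul h0).map (hN U hU u1 u2) hU.1
  rw [e] at this
  exact this hv c hc

theorem isMaximalIn_N1 (hF : Fintype.card F = q ^ 2) (hq : q ≠ 2) {W : Submodule F (V3 F)}
    (h0 : W ≠ ⊥) (hW : IsNondegenerateOn (hermForm 3 F q) W) (hd : 2 * Module.finrank F W < 3) :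
    IsMaximalIn (SUG 3 F q) (subspaceStabilizer W ⊓ SUG 3 F q) := by
  obtain ⟨w, hw, h1⟩ := exists_norm_in_line hF h0 hW (one_pow q)
  have hw0 : w ≠ 0 := by
    rintro rfl
    simp [herm_zero_left] at h1
  obtain ⟨⟨B, hB⟩, e⟩ := exists_GU_of_norm_eq hF (u := Pi.single 0 1) (v := w)
    (by simp [herm_single_left, h1]) (by simp [herm_single_left])
  obtain rfl : Submodule.span F {(B : M3 F) *ᵥ Pi.single 0 1} = W :=
    Submodule.eq_of_le_of_finrank_le ((Submodule.span_singleton_le_iff_mem _ _).2 (e ▸ hw))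
      (by rw [e, finrank_span_singleton hw0]; exact Nat.le_of_lt_succ (by linarith))
  refine ⟨lt_of_le_not_ge inf_le_right fun h => not_le_subspaceStabilizer hF le_rfl h0
    (fun e => by rw [e, finrank_top, Module.finrank_fin_fun] at hd; omega) (h.trans inf_le_left),
    fun X h2 h3 => or_iff_not_imp_left.2 fun h4 => le_antisymm h3 (le_of_pull (B := B) ?_)⟩
  obtain ⟨g, hg, hg'⟩ := SetLike.not_le_iff_exists.1 fun h => h4 (le_antisymm (le_inf h h3) h2)
  rw [pull_SUG' hB]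
  refine SUG_le_of_stab hF hq (fun x hx a b => pull_mono B h2 ?_) (g := B⁻¹ * g * B)
    (by rw [mem_pull]; simpa [mul_assoc] using hg)
    (mul_mem (mul_mem (inv_mem hB) (h3 hg).1) hB) fun h => hg' ?_
  · rw [pull_inf, pull_SUG' hB]
    exact ⟨mem_pull_stab.2 ⟨a, b⟩, hx⟩
  · simpa [mem_pull, mul_assoc] using (mem_pull_stab (B := B)).2 h

end CfsgLib.Mit.Gm
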