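import Mathlib
import Cfsg.Agent.Lib.Mit.GeoN1

/-! Normal forms for the geometric subgroups of `SU₃(q)`.  See `plans/MITCHELL.md`. -/

set_option autoImplicit false

namespace CfsgLib.Mit.Gm

open Matrix Cfsg Cfsg.Geo CfsgLib.Asch CfsgLib.Unitary
open scoped MatrixGroups commutatorElement

variable {F : Type*} [Field F] {M X R : Subgroup (GL (Fin 3) F)} {B P x g : GL (Fin 3) F}
  {F₀ : Subfield F}

/-- the Gram matrix of the polar form of the conic -/
def JJ (F : Type*) [Field F] : M3 F := !![0, 0, -1; 0, 2, 0; -1, 0, 0]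

theorem gform_JJ (u v : V3 F) :
    gform (RingHom.id F) (JJ F) u v = conicQ (u + v) - conicQ u - conicQ v := by
  simp [gform_eq_sum, JJ, Fin.sum_univ_three, conicQ]
  ring

theorem map_JJ {K : Type*} [Field K] (φ : K →+* F) : (JJ K).map φ = JJ F := by
  ext i j
  fin_cases i <;> fin_cases j <;> simp [JJ, map_ofNat]

variable [Fintype F] {q : ℕ}

theorem gform_one' (hF : Fintype.card F = q ^ 2) : gform (conj hF) 1 = hermForm 3 F q :=
  funext fun u => funext fun v => gform_one hF u v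

theorem exists_pull_frame (hF : Fintype.card F = q ^ 2) {D : Fin 3 → Submodule F (V3 F)}
    (hD : IsNondegenerateMDecomposition (hermForm 3 F q) 1 D) :
    ∃ B, pull B (decompositionStabilizer D ⊓ SUG 3 F q) = monG F ⊓ SUG 3 F q := by
  choose b hb h1 using fun i =>
    exists_norm_in_line hF (IsMDecomposition.ne_bot hD.decomp i) (hD.nondegenerate i) (one_pow q)
  obtain ⟨B, e, hB⟩ := exists_pull_decomp hD.decomp hb fun i h => by
    simpa [h, herm_zero_left] using h1 i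
  refine ⟨B, (pull_inf _ _ _).trans (congrArg₂ _ hB (pull_SUG' ((mem_GU_iff hF B).2 ?_)))⟩
  ext i j
  rw [e]
  change hermForm 3 F q (b i) (b j) = _
  by_cases hij : i = j
  · rw [hij, h1, one_apply_eq]
  · rw [hD.orthogonal i j hij _ (hb i) _ (hb j), one_apply_ne hij]

theorem exists_gram (hF : Fintype.card F = q ^ 2)
    (hP : IsFormRationalStructure (hermForm 3 F q) F₀ 1 P) :
    ∃ G : M3 F₀, G.map F₀.subtype = (P : M3 F)ᵀ * (P : M3 F).map (conj hF) ∧ IsUnit G.det ∧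
      ∀ i j, conj hF (G i j) = G j i := by
  obtain ⟨G, hG⟩ := rat_iff_exists.1 (show Rat F₀ (P.valᵀ * P.val.map (conj hF)) from fun i j => by
    have := hP _ _ (rat_single F₀ i) (rat_single F₀ j)
    rwa [one_mul, mulVec_single_one, mulVec_single_one] at this)
  refine ⟨G, hG, isUnit_iff_ne_zero.2 fun h => ?_, fun i j => ?_⟩
  · have := F₀.subtype.map_det G
    rw [h, map_zero, RingHom.mapMatrix_apply, hG, det_mul, det_transpose, ← RingHom.mapMatrix_apply,
      ← RingHom.map_det] at this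
    simpa [(Matrix.isUnits_det_units P).ne_zero] using this
  · have h1 := congrFun (congrFun hG i) j
    have h3 := congrFun (congrFun hG j) i
    simp only [map_apply, Subfield.coe_subtype] at h1 h3
    rw [h1, h3]
    simp [mul_apply, mul_comm, conj_conj]

theorem pull_of_gram (hF : Fintype.card F = q ^ 2) {G J : M3 F₀}
    (hG : G.map F₀.subtype = (P : M3 F)ᵀ * (P : M3 F).map (conj hF)) {τ : F₀ →+* F₀}
    (hτ : ∀ a, (τ a : F) = conj hF a) {A : GL (Fin 3) F₀} {c : F₀} (hc : c ≠ 0)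
    (h : (A : M3 F₀)ᵀ * G * (A : M3 F₀).map τ = c • J) :
    ∃ B, pull B (subfieldSubgroup F₀ P ⊓ SUG 3 F q) =
      subfieldSubgroup F₀ 1 ⊓ isoS (gform (conj hF) (J.map F₀.subtype)) := by
  refine ⟨P * GeneralLinearGroup.map F₀.subtype A, ?_⟩
  rw [pull_inf, pull_mul, pull_subfield, pull_of_mem (mem_subfield_one.2 ⟨1, fun i j => by
    simpa using (A.val i j).2⟩)]
  refine congrArg _ (pull_isoS (c := c) (by simpa using hc) fun u v => ?_)
  have h1 := congrArg (·.map F₀.subtype) h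
  have h2 : ((A : M3 F₀).map τ).map F₀.subtype = ((A : M3 F₀).map F₀.subtype).map (conj hF) :=
    Matrix.ext fun i j => hτ _
  have h3 : (c • J).map F₀.subtype = (c : F) • J.map F₀.subtype := Matrix.ext fun _ _ => rfl
  simp only [Matrix.map_mul, hG, h2, h3, transpose_map] at h1
  rw [← gform_one' hF, gform_mulVec, ← gform_smul, ← h1, Units.val_mul, Matrix.map_mul,
    transpose_mul, Matrix.mul_one]
  simp only [Matrix.mul_assoc]
  rfl

theorem exists_root (hF : Fintype.card F = q ^ 2) {r : ℕ} (hr : Odd r)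
    (hc : Fintype.card F = Nat.card F₀ ^ r) :
    ∃ Q, Nat.card F₀ = Q ^ 2 ∧ ∀ a ∈ F₀, conj hF a = a ^ Q := by
  have := Fintype.ofFinite F₀
  obtain ⟨a, ha, ha'⟩ := exists_not_fixed_of_odd hF hr hc
  obtain ⟨Q, h1, h2⟩ := invol_eq_pow (τ := (conj hF).restrict F₀ F₀ (pow_mem_subfield F₀ hF))
    (fun a => Subtype.ext (conj_conj hF a)) ⟨⟨a, ha⟩, fun h => ha' (congrArg Subtype.val h)⟩
  exact ⟨Q, Nat.card_eq_fintype_card.trans h1, fun a ha => congrArg Subtype.val (h2 ⟨a, ha⟩)⟩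

theorem exists_pull_sub (hF : Fintype.card F = q ^ 2) {r : ℕ} (hr : Odd r)
    (hc : Fintype.card F = Nat.card F₀ ^ r)
    (hP : IsFormRationalStructure (hermForm 3 F q) F₀ 1 P) :
    ∃ B, pull B (subfieldSubgroup F₀ P ⊓ SUG 3 F q) = subfieldSubgroup F₀ 1 ⊓ SUG 3 F q := by
  have := Fintype.ofFinite F₀
  obtain ⟨Q, h1, h2⟩ := exists_root hF hr hc
  rw [Nat.card_eq_fintype_card] at h1
  obtain ⟨G, hG, hd, hs⟩ := exists_gram hF hP
  have hτ : ∀ a : F₀, (conj h1 a : F) = conj hF a := fun a => (h2 a a.2).symm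
  have hf := isSesq0_gform (conj h1) G
  obtain ⟨l, A, hl, -, e⟩ := exists_ortho h1 (f₁ := gform (conj h1) G) (ε := 1)
    ⟨conj_conj h1, hf.add_left, hf.smul_left, fun v w => by
      rw [one_mul, map_gform (conj_conj h1)]
      congr 1
      ext i j
      exact ((hτ _).trans (hs j i)).symm, by simp, nondeg_gform hd⟩
  rw [gramMatrix_gform] at e
  have := pull_of_gram hF hG hτ (inv_ne_zero hl) e
  rwa [Matrix.map_one _ (map_zero _) (map_one _), gform_one'] at this

theorem exists_pull_orth (hF : Fintype.card F = q ^ 2) (hq : Odd q)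
    (hP : IsFormRationalStructure (hermForm 3 F q) (fixedSubfield hF) 1 P) :
    ∃ B, pull B (subfieldSubgroup (fixedSubfield hF) P ⊓ SUG 3 F q) =
      subfieldSubgroup (fixedSubfield hF) 1 ⊓ isoS (gform (conj hF) (JJ F)) := by
  set F₀ := fixedSubfield hF
  have h2 : (2 : F₀) ≠ 0 := fun h => (odd_q_iff hF).1 hq (congrArg Subtype.val h)
  obtain ⟨G, hG, hd, hs⟩ := exists_gram hF hP
  have hf : IsSymmetricForm (gform (RingHom.id F₀) G) :=
    ⟨(isSesq0_gform _ G).bilin, fun u v => by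
      refine (map_gform (σ := RingHom.id F₀) (fun _ => rfl) G u v).trans ?_
      congr 1
      ext i j
      exact (G j i).2.symm.trans (hs j i), nondeg_gform hd⟩
  obtain ⟨A, c, hc, e⟩ := exists_conic_basis (quadratic_of_symm hf h2)
  have := pull_of_gram hF hG (τ := RingHom.id F₀) (fun a => a.2.symm) (A := A) (J := JJ F₀)
    (div_ne_zero hc h2) (gform_ext (σ := RingHom.id F₀) fun u v => mul_left_cancel₀ h2 (by
      rw [← gform_mulVec, ← polar_of_symm hf, QuadraticMap.polar, ← mulVec_add, e, e, e,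
        gform_smul, gform_JJ]
      field_simp))
  rwa [map_JJ] at this

theorem oRow_fixed (hF : Fintype.card F = q ^ 2) : ORow (fixedSubfield hF)
    (subfieldSubgroup (fixedSubfield hF) 1 ⊓ isoS (gform (conj hF) (JJ F))) := fun A hA => by
  have h1 : Rat (fixedSubfield hF) (adjH A : M3 F) := by
    set F₀ := fixedSubfield hF
    have h2 : (2 : F) ∈ F₀ := by exact_mod_cast natCast_mem F₀ 2
    rw [coe_adjH, adj2, det_fin_two]
    exact Rat.smul (inv_mem (sub_mem (mul_mem (hA _ _) (hA _ _)) (mul_mem (hA _ _) (hA _ _))))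
      (rat_three (pow_mem (hA _ _) _) (mul_mem (mul_mem h2 (hA _ _)) (hA _ _)) (pow_mem (hA _ _) _)
        (mul_mem (hA _ _) (hA _ _)) (add_mem (mul_mem (hA _ _) (hA _ _)) (mul_mem (hA _ _) (hA _ _)))
        (mul_mem (hA _ _) (hA _ _)) (pow_mem (hA _ _) _) (mul_mem (mul_mem h2 (hA _ _)) (hA _ _))
        (pow_mem (hA _ _) _))
  refine ⟨mem_subfield_one.2 ⟨1, by simpa using h1⟩, fun u v => ?_,
    mem_specialLinear.2 (det_adj2 (gl2_det_ne A))⟩
  rw [Units.coeHom_apply, gform_mulVec, show (adjH A : M3 F).map (conj hF) =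
    (adjH A : M3 F).map (RingHom.id F) from Matrix.ext h1]
  congr 1
  refine gform_ext (σ := RingHom.id F) fun u v => ?_
  rw [← gform_mulVec, gform_JJ, gform_JJ, ← mulVec_add, coe_adjH]
  simp only [conicQ_adj2 (gl2_det_ne A)]

theorem uRow_SUG (hF : Fintype.card F = q ^ 2) : URow ⊤ (conj hF) (SUG 3 F q) :=
  fun x h1 h2 => ⟨(mem_GU_iff hF x).2 h2.2, mem_specialLinear.2 h1⟩

theorem uRow_sub (hF : Fintype.card F = q ^ 2) {σ : F →+* F} (h : ∀ a ∈ F₀, conj hF a = σ a) :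
    URow F₀ σ (subfieldSubgroup F₀ 1 ⊓ SUG 3 F q) := fun x h1 h2 =>
  ⟨mem_subfield_one.2 ⟨1, by simpa using h2.1⟩, (mem_GU_iff hF x).2 (by
    rw [← h2.2]
    exact congrArg _ (Matrix.ext fun i j => h _ (h2.1 i j))), mem_specialLinear.2 h1⟩

omit [Fintype F] in
theorem Om.pow_q {ω : F} (hω : Om ω) (hq : q % 3 = 2) : ω ^ q = ω ^ 2 := by
  rw [← Nat.div_add_mod q 3, hq, pow_add, pow_mul, hω.cube, one_pow, one_mul]

theorem exists_om' (hF : Fintype.card F = q ^ 2) (hq : q % 3 = 2) : ∃ ω : F, Om ω :=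
  exists_om (by
    obtain ⟨k, rfl⟩ : ∃ k, q = 3 * k + 2 := ⟨q / 3, by omega⟩
    exact ⟨3 * k ^ 2 + 4 * k + 1, by rw [hF, Nat.sub_eq_iff_eq_add (Nat.one_le_pow _ _ (by omega))]; ring⟩)

theorem hessRow_SUG (hF : Fintype.card F = q ^ 2) (hq : q % 3 = 2) {ω : F} (hω : Om ω) :
    HessRow hω (SUG 3 F q) := (uRow_SUG hF).hessRow hω (Subfield.mem_top ω) (hω.pow_q hq)

theorem exists_pull_hess (hF : Fintype.card F = q ^ 2) (hq : q % 3 = 2) {ω : F} (hω : Om ω)
    (henv : env R = ⊤) (h3 : ∀ x ∈ R, x ^ 3 = 1) (hs : R ≤ similarityGroup (hermForm 3 F q)) :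
    ∃ B, pull B R = stdR hω ∧
      pull B (subgroupNormalizer R ⊓ SUG 3 F q) = subgroupNormalizer (stdR hω) ⊓ SUG 3 F q := by
  obtain ⟨B, hB⟩ := exists_pull_R hω henv h3
  have h1 : hermForm 3 F q (Pi.single 0 1) (Pi.single 0 1) = 1 := by simp [herm_single_left]
  have hR : R ≤ GU 3 F q := fun x hx => by
    obtain ⟨c, hc⟩ := hs hx
    have hm : Mult (hermForm 3 F q) x c := hc
    have e1 := (hm.mul (hm.mul hm)) (Pi.single 0 1) (Pi.single 0 1)
    rw [← pow_three, ← pow_three, h3 x hx, Units.val_one, one_mulVec, h1, mul_one] at e1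
    have e2 := herm_self_pow_q hF ((x : M3 F) *ᵥ Pi.single 0 1)
    rw [hc, h1, mul_one, ← Nat.div_add_mod q 3, hq, pow_add, pow_mul, ← e1, one_pow, one_mul,
      pow_two, mul_eq_left₀ c.ne_zero] at e2
    exact fun u v => (hc u v).trans (by rw [e2, one_mul])
  have hf := (isSesq_herm hF 3).sesq0
  obtain ⟨c, hc⟩ := sesq_proportional (N := stdR hω)
    (env_top_of_pull (B := B⁻¹) (by rwa [← hB, ← pull_mul, mul_inv_cancel, pull_of_mem (one_mem R)]))
    hf (isSesq_herm hF 3).nondeg (hf.comp (B : M3 F) B)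
    (fixes_of_le_GU ((hessRow_SUG hF hq hω).le.trans inf_le_left))
    (fixesForm_iff.2 fun x hx u v => by
      rw [← cj_mulVec, ← cj_mulVec, cj_coe]
      exact hR (mem_pull.1 (hB ▸ hx)) _ _)
  refine ⟨B, hB, (pull_inf _ _ _).trans (congrArg₂ _ (hB ▸ pull_normalizer B R)
    (pull_SUG (fun h0 => ?_) hc))⟩
  have := hc (((B⁻¹ : GL (Fin 3) F) : M3 F) *ᵥ Pi.single 0 1)
    (((B⁻¹ : GL (Fin 3) F) : M3 F) *ᵥ Pi.single 0 1)
  rw [mulVec_inv_mulVec, h1, h0, zero_mul] at this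
  exact one_ne_zero this

end CfsgLib.Mit.Gm
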