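import Mathlib
import Cfsg.Agent.Lib.Mit.GeoSUNf
import Cfsg.Agent.S5778

/-! The geometric maximal subgroups of `SU₃(q)`.  See `plans/MITCHELL.md`. -/

set_option autoImplicit false

namespace CfsgLib.Mit.Gm

open Matrix Cfsg Cfsg.Geo CfsgLib.Asch CfsgLib.Unitary
open scoped MatrixGroups commutatorElement

variable {F : Type*} [Field F] [Fintype F] {q : ℕ} {H M : Subgroup (GL (Fin 3) F)}
  {B : GL (Fin 3) F}

/-- the maximal subgroups of `SU₃(q)` in the residual class -/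
def ResSU (q : ℕ) (H : Subgroup (GL (Fin 3) F)) : Prop :=
  ∃ P : Subgroup (GL (Fin 3) F), IsResidualCore H P ∧ q.Prime ∧
    ((BarL32 P ∧ H ≤ P ⊔ scalars (Fin 3) F ∧ Nat.card H ∣ 504 ∧ (q = 3 → Nat.card H = 168) ∧
        q ≠ 5 ∧ (q % 7 = 3 ∨ q % 7 = 5 ∨ q % 7 = 6)) ∨
     (BarAlt P 6 ∧ (3 : F) ≠ 0 ∧
        (((q % 15 = 11 ∨ q % 15 = 14) ∧ H = P) ∨ (q = 5 ∧ Nat.card H ∣ 2160))) ∨
     (BarAlt P 7 ∧ q = 5 ∧ H = P))

/-- the maximal subgroups of `SU₃(q)` with their invariants -/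
inductive SUCol (hF : Fintype.card F = q ^ 2) (H : Subgroup (GL (Fin 3) F)) : Prop
  | c1 (h : Col1 H)
  | c2 (h : Col2 H) (B : GL (Fin 3) F) (e : pull B H = monG F ⊓ SUG 3 F q)
  | c3 (h : Col3 H) (K : Subalgebra F (M3 F)) (hK : IsFieldSubalgebra 3 K)
      (e : H = subalgebraNormalizer K ⊓ SUG 3 F q)
  | c5 (F₀ : Subfield F) (r : ℕ) (hr : r.Prime) (ho : Odd r)
      (hq : Fintype.card F = Nat.card F₀ ^ r) (h : Col5 F₀ H) (B : GL (Fin 3) F)
      (e : pull B H = subfieldSubgroup F₀ 1 ⊓ SUG 3 F q)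
  | o (h : Col5 (fixedSubfield hF) H) (B : GL (Fin 3) F)
      (e : pull B H = subfieldSubgroup (fixedSubfield hF) 1 ⊓ isoS (gform (conj hF) (JJ F)))
  | c6 (hp : q.Prime) (h2 : (2 : F) ≠ 0) (h : Col6 H)
      (e : ∀ (ω : F) (hω : Om ω), ∃ B, pull B H = subgroupNormalizer (stdR hω) ⊓ SUG 3 F q)
  | s1 (hp : q.Prime) (h : Nat.card H ∣ 504) (h5 : q ≠ 5) (h7 : q ≠ 7)
  | s2 (hp : q.Prime) (h11 : 11 ≤ q) (hH : QS H) (h : BarAlt H 6)
  | s3 (h : q = 5)

theorem suCol (hF : Fintype.card F = q ^ 2) (hq : 3 ≤ q)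
    (hres : InUnitaryResidualClass H → ResSU q H) (hH : IsMaximalIn (SUG 3 F q) H) :
    SUCol hF H := by
  have hSL : H ≤ specialLinear (Fin 3) F := hH.1.le.trans inf_le_right
  rcases Cfsg.Agent.S5778.result q hF hq H hH with ⟨W, h0, h1, rfl⟩ | ⟨W, h0, -, h1, rfl⟩ |
    ⟨-, D, hD, rfl⟩ | ⟨-, -, K, hK, -, rfl⟩ | ⟨F₀, r, P, hr, ho, hc, hP, rfl⟩ |
    ⟨ho, -, F₀, P, hc, hP, rfl⟩ | ⟨p, R, hp, rfl, h3, h11, hR, hA, hs, -, -, rfl⟩ | h
  · refine .c1 (col1_of_le h0 ?_ inf_le_left)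
    rintro rfl
    simpa [herm_single_left] using h1 (Pi.single 0 1) trivial (Pi.single 0 1) trivial
  · refine .c1 (col1_of_le h0 ?_ inf_le_left)
    rintro rfl
    rw [finrank_top, Module.finrank_fin_fun] at h1
    omega
  · obtain ⟨B, hB⟩ := exists_pull_frame hF hD
    exact .c2 (col2_of_le hD.decomp inf_le_left) B hB
  · exact .c3 (col3_of_le hK inf_le_left hSL) K hK rfl
  · obtain ⟨B, hB⟩ := exists_pull_sub hF ho hc hP
    exact .c5 F₀ r hr ho hc (col5_of_le inf_le_left hSL) B hB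
  · obtain rfl := subfield_eq_fixed hF hc
    obtain ⟨B, hB⟩ := exists_pull_orth hF ho hP
    exact .o (col5_of_le inf_le_left hSL) B hB
  · have key := fun (ω : F) (hω : Om ω) =>
      exists_pull_hess hF h3 hω (span_eq_top_of_absIrred hA) (cube_of_type hR) hs
    obtain ⟨ω, hω⟩ := exists_om' hF h3
    obtain ⟨B, hB, -⟩ := key ω hω
    exact .c6 hp ((odd_q_iff hF).1 (hp.odd_of_ne_two (by omega)))
      (col6_of_le hω hB inf_le_left hSL) fun ω hω => (key ω hω).imp fun _ h => h.2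
  · obtain ⟨P, hP, hp, ⟨-, -, h1, -, h2, h3⟩ | ⟨h1, -, ⟨h2, rfl⟩ | ⟨h2, -⟩⟩ | ⟨-, h, -⟩⟩ := hres h
    exacts [.s1 hp h1 h2 (by omega), .s2 hp (by omega) (qs_of_core hP) h1, .s3 h2, .s3 h]

theorem not_prime_of_odd (hF : Fintype.card F = q ^ 2) {F₀ : Subfield F} {r : ℕ} (hr : r.Prime)
    (ho : Odd r) (hc : Fintype.card F = Nat.card F₀ ^ r) : ¬ q.Prime := fun hp => by
  obtain ⟨Q, h, -⟩ := exists_root hF ho hc
  rw [hF, h, ← pow_mul, mul_comm, pow_mul] at hc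
  exact hr.ne_one (Nat.Prime.eq_one_of_pow (Nat.pow_left_injective two_ne_zero hc ▸ hp))

theorem card_fixed' (hF : Fintype.card F = q ^ 2) :
    Fintype.card F = Nat.card (fixedSubfield hF) ^ 2 := by rw [card_fixedSubfield, hF]

theorem not_dvd_sub {q n Q r : ℕ} (hq : 3 ≤ q) (hn : n + q = q ^ 2 + 1) (hQ : 2 ≤ Q) (hr : 2 ≤ r)
    (h4 : r ≠ 4) (h : q ^ 2 = Q ^ r) :
    ¬ (n ∣ 3 * (Q - 1) ∨ n ∣ 3 * (Q ^ 2 - 1) ∨ n ∣ 3 * (Q ^ 3 - 1)) := fun h1 => by
  have h2 : 3 * q ≤ q ^ 2 := by nlinarith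
  have key : ¬ n ∣ 3 * (q ^ 2 - 1) := fun h3 => by
    have h5 : n ∣ 3 * (q - 2) := by
      have := Nat.dvd_sub h3 (dvd_mul_left n 3)
      rwa [show 3 * (q ^ 2 - 1) - 3 * n = 3 * (q - 2) by omega] at this
    have := Nat.le_of_dvd (by omega) h5
    have : 4 * q + 4 ≤ q ^ 2 + 8 := by nlinarith [sq_nonneg ((q : ℤ) - 2)]
    omega
  have h5 : Q ≤ Q ^ 2 := Nat.le_self_pow two_ne_zero Q
  have h6 : 2 * Q ^ 2 ≤ Q ^ 3 := by rw [pow_succ', pow_succ' Q 2]; nlinarith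
  obtain rfl | rfl | h7 : r = 2 ∨ r = 3 ∨ 5 ≤ r := by omega
  · obtain rfl : q = Q := Nat.pow_left_injective two_ne_zero h
    rcases h1 with h1 | h1 | h1
    · have := Nat.le_of_dvd (by omega) h1
      have : 4 * q < q ^ 2 + 4 := by nlinarith
      omega
    · exact key h1
    · have h3 : n ∣ 3 * (q ^ 3 + 1) := Dvd.dvd.mul_left ⟨q + 1, by
        zify at hn ⊢
        linear_combination (-(q : ℤ) - 1) * hn⟩ 3
      have := Nat.dvd_sub h3 h1
      rw [show 3 * (q ^ 3 + 1) - 3 * (q ^ 3 - 1) = 6 by omega] at this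
      have := Nat.le_of_dvd (by norm_num) this
      omega
  · have h8 : n ≤ 3 * (Q ^ 2 - 1) := by
      rcases h1 with h1 | h1 | h1
      · have := Nat.le_of_dvd (by omega) h1
        omega
      · exact Nat.le_of_dvd (by omega) h1
      · exact absurd (h ▸ h1) key
    have h9 : q ≤ Q ^ 2 := by nlinarith
    have : Q < 4 := by
      by_contra
      have : 4 * Q ^ 2 ≤ Q ^ 3 := by rw [pow_succ' Q 2]; exact Nat.mul_le_mul_right _ (by omega)
      omega
    interval_cases Q <;> interval_cases q <;> omega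
  · have h8 : n ≤ 3 * (Q ^ 3 - 1) := by
      rcases h1 with h1 | h1 | h1 <;> have := Nat.le_of_dvd (by omega) h1 <;> omega
    have h9 : 4 * Q ^ 3 ≤ q ^ 2 := by
      rw [h]
      calc 4 * Q ^ 3 ≤ Q ^ 2 * Q ^ 3 := Nat.mul_le_mul_right _ (by nlinarith)
        _ ≤ Q ^ r := by rw [← pow_add]; exact Nat.pow_le_pow_right (by omega) h7
    have : 8 ≤ Q ^ 3 := by nlinarith
    have : 4 * q ≤ q ^ 2 := by nlinarith
    omega

theorem le_seven_of_504 {p : ℕ} (hp : p.Prime) (h : p ∣ 504) : p ≤ 7 := by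
  rw [show 504 = 2 ^ 3 * (3 ^ 2 * 7) from rfl, hp.dvd_mul, hp.dvd_mul] at h
  rcases h with h | h | h
  · exact (Nat.le_of_dvd (by norm_num) (hp.dvd_of_dvd_pow h)).trans (by norm_num)
  · exact (Nat.le_of_dvd (by norm_num) (hp.dvd_of_dvd_pow h)).trans (by norm_num)
  · exact Nat.le_of_dvd (by norm_num) h

namespace SUCol

variable {hF : Fintype.card F = q ^ 2}

theorem eq_c2 (hc : SUCol hF H) (hle : M ≤ H) (hq : 3 ≤ q) (h5 : q ≠ 5)
    (e : pull B M = monG F ⊓ SUG 3 F q) : H = M := by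
  have hr : MonRow (muG ⊤ (conj hF)) (pull B H) := MonRow.mono (M := monG F ⊓ SUG 3 F q)
    ⟨fun a ha b hb c hc h => ⟨dg_mem_monG a b c, (uRow_SUG hF).monRow.dg_mem a ha b hb c hc h⟩,
      ⟨tS_mem_monG, (uRow_SUG hF).monRow.t_mem⟩, ⟨yS_mem_monG, (uRow_SUG hF).monRow.y_mem⟩⟩
    (e ▸ pull_mono B hle)
  have h0 := card_top.trans hF
  obtain ⟨-, ζ, h1, h2⟩ := exists_zeta' h0
  have h3 := zeta_mem_muG (conj_apply hF) h1 h2
  have h4 := hr.order_sq_dvd h3
  rw [card_pull, h1] at h4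
  cases hc with
  | c1 h =>
    exact absurd (env_top_of_pull (hr.env_top h3 (sq_ne_one_of_order (by omega)))) h.env_ne
  | c2 _ B' e' => exact eq_of_pull hle (e.trans e'.symm)
  | c3 h => exact absurd (h.pull B) hr.not_col3
  | c5 F₀ r hr' _ hq' h =>
    exact absurd (le_of_zeta h0 h1 h2 (hr.mem_of_col5 (h.pull B) h3)) (ne_top_of_card hr' hq')
  | o h =>
    exact absurd (le_of_zeta h0 h1 h2 (hr.mem_of_col5 (h.pull B) h3))
      (ne_top_of_card Nat.prime_two (card_fixed' hF))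
  | c6 _ h2 h => exact absurd (h.pull B) (hr.not_col6 neg_one_mem_muG h2)
  | s1 _ h =>
    have h6 := le_six_of_504 (h4.trans h)
    have := Nat.le_of_dvd (by norm_num) h6
    obtain h | h : q = 3 ∨ q = 4 := by omega
    all_goals
      rw [h] at h6
      omega
  | s2 _ _ hH h =>
    have := Nat.le_of_dvd (by norm_num) (le_six_of_1080 (h4.trans (card_dvd_1080 hH h)))
    omega
  | s3 h => exact absurd h h5

theorem eq_c3 (hc : SUCol hF H) {K : Subalgebra F (M3 F)} (hK : IsFieldSubalgebra 3 K)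
    (hadj : IsAdjointClosedFor (hermForm 3 F q) K) (hq : 3 ≤ q) (h3 : q ≠ 3) (h5 : q ≠ 5)
    (hle : subalgebraNormalizer K ⊓ SUG 3 F q ≤ H) : H = subalgebraNormalizer K ⊓ SUG 3 F q := by
  obtain ⟨q, rfl⟩ : ∃ k, q = k + 1 := ⟨q - 1, by omega⟩
  have hr := (kRow_SU hF (by omega) hK hadj).mono hle
  cases hc with
  | c1 h => exact absurd h hr.not_col1
  | c2 h => exact absurd h hr.not_col2
  | c3 _ K' hK' e => rw [e, hr.eq_of_le hK' (e.le.trans inf_le_left)]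
  | c5 F₀ r hr' _ hq' h =>
    exact absurd (hr.dvd_of_col5 h) (not_dvd_sub hq (by ring) (two_le_card F₀) hr'.two_le
      (by rintro rfl; norm_num at hr') (hF.symm.trans hq'))
  | o h =>
    exact absurd (hr.dvd_of_col5 h) (not_dvd_sub hq (by ring) (two_le_card _) le_rfl
      (by norm_num) (hF.symm.trans (card_fixed' hF)))
  | c6 _ _ h => exact absurd h hr.not_col6
  | s1 _ h =>
    have h2 := hr.dvd_card.trans h
    have h4 := Nat.le_of_dvd (by norm_num) h2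
    have : q ≤ 22 := by nlinarith
    interval_cases q <;> omega
  | s2 _ _ hH h =>
    have h2 := hr.dvd_card.trans (card_dvd_1080 hH h)
    have h4 := Nat.le_of_dvd (by norm_num) h2
    have : q ≤ 33 := by nlinarith
    interval_cases q <;> omega
  | s3 h => exact absurd h h5

theorem eq_c5 (hc : SUCol hF H) (hle : M ≤ H) {F₀ : Subfield F} {r : ℕ} (hr' : r.Prime)
    (ho : Odd r) (hq : Fintype.card F = Nat.card F₀ ^ r)
    (e : pull B M = subfieldSubgroup F₀ 1 ⊓ SUG 3 F q) : H = M := by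
  obtain ⟨Q, h0, hσ'⟩ := exists_root hF ho hq
  obtain ⟨σ, hσ⟩ := exists_frob F two_ne_zero h0
  have hr := (uRow_sub hF fun a ha => (hσ' a ha).trans (hσ a).symm).mono (e ▸ pull_mono B hle)
  obtain ⟨hQ, ζ, h1, h2⟩ := exists_zeta' h0
  have h3 := zeta_mem_muG hσ h1 h2
  have hp := not_prime_of_odd hF hr' ho hq
  cases hc with
  | c1 h =>
    exact absurd (env_top_of_pull (hr.monRow.env_top h3 (sq_ne_one_of_order (by omega)))) h.env_ne
  | c2 h => exact absurd (h.pull B) (hr.not_col2 h0 hσ)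
  | c3 h => exact absurd (h.pull B) hr.monRow.not_col3
  | c5 F₁ r' hr'' _ hq' h B' e' =>
    obtain ⟨rfl, -⟩ := eq_of_prime_index
      (le_of_zeta h0 h1 h2 (hr.monRow.mem_of_col5 (h.pull B) h3)) hr' hr'' hq hq'
    exact eq_of_pull hle (e.trans e'.symm)
  | o h =>
    obtain ⟨-, rfl⟩ := eq_of_prime_index (le_of_zeta h0 h1 h2
      (hr.monRow.mem_of_col5 (h.pull B) h3)) hr' Nat.prime_two hq (card_fixed' hF)
    exact absurd ho (by decide)
  | c6 h => exact absurd h hp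
  | s1 h => exact absurd h hp
  | s2 h => exact absurd h hp
  | s3 h => exact absurd (h ▸ Nat.prime_five) hp

theorem eq_o (hc : SUCol hF H) (hle : M ≤ H) (ho : Odd q) (hq : 7 ≤ q)
    (e : pull B M = subfieldSubgroup (fixedSubfield hF) 1 ⊓ isoS (gform (conj hF) (JJ F))) :
    H = M := by
  have hr := (oRow_fixed hF).mono (e ▸ pull_mono B hle)
  have h2 := (odd_q_iff hF).1 ho
  have h3 := hr.card_dvd
  rw [card_fixedSubfield, card_pull] at h3
  cases hc with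
  | c1 h => exact absurd (env_top_of_pull (hr.env_top h2)) h.env_ne
  | c2 h =>
    have := Nat.le_of_dvd (by norm_num) (card_fixedSubfield hF ▸ hr.dvd_six (h.pull B))
    omega
  | c3 h => exact absurd (h.pull B) hr.not_col3
  | c5 F₁ r' hr' ho' hq' h =>
    obtain ⟨-, rfl⟩ := eq_of_prime_index (hr.le_of_col5 (h.pull B)) Nat.prime_two hr'
      (card_fixed' hF) hq'
    exact absurd ho' (by decide)
  | o _ B' e' => exact eq_of_pull hle (e.trans e'.symm)
  | c6 _ _ h => exact absurd (h.pull B) (hr.not_col6 h2)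
  | s1 hp h =>
    have := le_seven_of_504 hp (h3.trans h)
    omega
  | s2 hp _ hH h =>
    have h4 := h3.trans (card_dvd_1080 hH h)
    rw [show 1080 = 2 ^ 3 * (3 ^ 3 * 5) from rfl, hp.dvd_mul, hp.dvd_mul] at h4
    rcases h4 with h | h | h
    · have := Nat.le_of_dvd (by norm_num) (hp.dvd_of_dvd_pow h)
      omega
    · have := Nat.le_of_dvd (by norm_num) (hp.dvd_of_dvd_pow h)
      omega
    · have := Nat.le_of_dvd (by norm_num) h
      omega
  | s3 h => omega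

theorem eq_c6 (hc : SUCol hF H) (hle : M ≤ H) (hp : q.Prime) (h3 : q % 3 = 2) (h5 : q ≠ 5)
    {ω : F} (hω : Om ω) (e : pull B M = subgroupNormalizer (stdR hω) ⊓ SUG 3 F q) : H = M := by
  have hr := ((hessRow_normalizer hω).inf (hessRow_SUG hF h3 hω)).mono (e ▸ pull_mono B hle)
  cases hc with
  | c1 h => exact absurd (env_top_of_pull hr.env_top) h.env_ne
  | c2 h => exact absurd (h.pull B) hr.not_col2
  | c3 h => exact absurd (h.pull B) hr.monRow.not_col3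
  | c5 F₁ r' hr' ho hq' => exact absurd hp (not_prime_of_odd hF hr' ho hq')
  | o h =>
    exact absurd ((hω.pow_q h3).symm.trans (hr.monRow.mem_of_col5 (h.pull B) (mk0_mem_roots hω)))
      hω.sq_ne
  | c6 _ _ _ e' =>
    obtain ⟨B', e'⟩ := e' ω hω
    exact eq_of_pull hle (e.trans e'.symm)
  | s1 _ h =>
    have := (Subgroup.card_dvd_of_le hr.le).trans (card_pull B H ▸ h)
    rw [card_stdR] at this
    omega
  | s2 _ _ hH h => exact absurd hr (not_hessRow hH h)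
  | s3 h => exact absurd h h5

end SUCol

theorem isMaximalIn_SU (hF : Fintype.card F = q ^ 2) (hq : 3 ≤ q)
    (hres : ∀ H, IsMaximalIn (SUG 3 F q) H → InUnitaryResidualClass H → ResSU q H)
    {X : Subgroup (GL (Fin 3) F)} (h1 : ¬ SUG 3 F q ≤ X)
    (h2 : ∀ H, SUCol hF H → X ⊓ SUG 3 F q ≤ H → H = X ⊓ SUG 3 F q) :
    IsMaximalIn (SUG 3 F q) (X ⊓ SUG 3 F q) :=
  have := finite_gl (F := F)
  isMaximalIn_of_forall inf_le_right (fun h => h1 (h.trans inf_le_left)) fun H hH =>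
    h2 H (suCol hF hq (hres H hH) hH)

theorem geo_su (hF : Fintype.card F = q ^ 2) (hq : 3 ≤ q)
    (hres : ∀ H, IsMaximalIn (SUG 3 F q) H → InUnitaryResidualClass H → ResSU q H) :
    (q ≠ 5 → ∀ D : Fin 3 → Submodule F (Fin 3 → F),
      IsNondegenerateMDecomposition (hermForm 3 F q) 1 D →
      IsMaximalIn (SUG 3 F q) (decompositionStabilizer D ⊓ SUG 3 F q)) ∧
    (q ≠ 3 → q ≠ 5 → ∀ K : Subalgebra F (Matrix (Fin 3) (Fin 3) F), IsFieldSubalgebra 3 K →
      IsAdjointClosedFor (hermForm 3 F q) K →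
      IsMaximalIn (SUG 3 F q) (subalgebraNormalizer K ⊓ SUG 3 F q)) ∧
    (∀ (F₀ : Subfield F) (r : ℕ) (P : GL (Fin 3) F), r.Prime → Odd r →
      Fintype.card F = Nat.card F₀ ^ r → IsFormRationalStructure (hermForm 3 F q) F₀ 1 P →
      IsMaximalIn (SUG 3 F q) (subfieldSubgroup F₀ P ⊓ SUG 3 F q)) ∧
    (Odd q → 7 ≤ q → ∀ (F₀ : Subfield F) (P : GL (Fin 3) F), Fintype.card F = Nat.card F₀ ^ 2 →
      IsFormRationalStructure (hermForm 3 F q) F₀ 1 P →
      IsMaximalIn (SUG 3 F q) (subfieldSubgroup F₀ P ⊓ SUG 3 F q)) ∧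
    (∀ (p : ℕ) (R : Subgroup (GL (Fin 3) F)), p.Prime → q = p → p % 3 = 2 → 11 ≤ p →
      IsSymplecticTypeGroup 3 R → ActsAbsolutelyIrreducibly (matrixSet R) →
      R ≤ similarityGroup (hermForm 3 F q) → Nat.card R = 27 → Nat.card (Subgroup.center R) = 3 →
      IsMaximalIn (SUG 3 F q) (subgroupNormalizer R ⊓ SUG 3 F q)) := by
  have hex : ¬ (3 = 3 ∧ q = 2) := by omega
  refine ⟨fun h5 D hD => ?_, fun h3 h5 K hK hadj => ?_, fun F₀ r P hr ho hc hP => ?_,
    fun ho h7 F₀ P hc hP => ?_, fun p R hp e h3 h11 hR hA hs _ _ => ?_⟩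
  · obtain ⟨B, hB⟩ := exists_pull_frame hF hD
    exact isMaximalIn_SU hF hq hres (not_le_decomp_nondeg hF le_rfl hex hD) fun H hc hle =>
      hc.eq_c2 hle hq h5 hB
  · exact isMaximalIn_SU hF hq hres (not_le_subalgebraNormalizer hF le_rfl hex (by norm_num) hK)
      fun H hc hle => hc.eq_c3 hK hadj hq h3 h5 hle
  · obtain ⟨B, hB⟩ := exists_pull_sub hF ho hc hP
    exact isMaximalIn_SU hF hq hres (not_le_subfield_odd hF le_rfl hex
      (hr.two_le.lt_of_ne fun h => absurd (h ▸ ho) (by decide)) hc) fun H hc' hle =>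
      hc'.eq_c5 hle hr ho hc hB
  · have h1 := not_le_subfield_two hF le_rfl hex hc (P := P)
    obtain rfl := subfield_eq_fixed hF hc
    obtain ⟨B, hB⟩ := exists_pull_orth hF ho hP
    exact isMaximalIn_SU hF hq hres h1 fun H hc' hle => hc'.eq_o hle ho h7 hB
  · subst e
    obtain ⟨ω, hω⟩ := exists_om' hF h3
    obtain ⟨B, hB, e⟩ :=
      exists_pull_hess hF h3 hω (span_eq_top_of_absIrred hA) (cube_of_type hR) hs
    exact isMaximalIn_SU hF hq hres (fun h => (uRow_SUG hF).monRow.not_col6 neg_one_mem_muG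
      ((odd_q_iff hF).1 (hp.odd_of_ne_two (by omega))) (col6_of_le hω hB h inf_le_right))
      fun H hc hle => hc.eq_c6 hle hp h3 (by omega) hω e

end CfsgLib.Mit.Gm
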