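import Mathlib
import Cfsg.Agent.Lib.Mit.Basic
import Cfsg.Agent.Lib.Transfer.Focal
import Cfsg.Agent.Lib.AltAut.Basic
import Cfsg.Agent.Lib.Classical.SmallIso

/-! Automorphisms induced by the normaliser of a quasisimple subgroup of `GL₃(q)`. -/

set_option autoImplicit false

namespace CfsgLib.Mit.Nm

open Matrix Cfsg Cfsg.Geo CfsgLib.Asch Equiv
open scoped MatrixGroups commutatorElement

section General

theorem exists_isConj_pow {G : Type*} [Group G] [Finite G] {p : ℕ} [hp : Fact p.Prime]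
    (h : ¬ p ^ 2 ∣ Nat.card G) {u v : G} (hu : orderOf u = p) (hv : orderOf v = p) :
    ∃ k, 0 < k ∧ k < p ∧ IsConj (u ^ k) v := by
  have key : ∀ w : G, orderOf w = p → ∃ S : Sylow p G, (S : Subgroup G) = Subgroup.zpowers w := by
    intro w hw
    have h1 : IsPGroup p (Subgroup.zpowers w) :=
      IsPGroup.of_card (n := 1) (by rw [Nat.card_zpowers, hw, pow_one])
    obtain ⟨S, hS⟩ := h1.exists_le_sylow
    obtain ⟨n, hn⟩ := S.2.exists_card_eq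
    have h2 : n ≤ 1 := by
      by_contra hc
      exact h ((pow_dvd_pow p (by omega)).trans (hn ▸ Subgroup.card_subgroup_dvd_card _))
    refine ⟨S, (Subgroup.eq_of_le_of_card_ge hS ?_).symm⟩
    rw [Nat.card_zpowers, hw]
    calc _ = p ^ n := hn
      _ ≤ p ^ 1 := Nat.pow_le_pow_right hp.out.pos h2
      _ = p := pow_one p
  obtain ⟨S, hS⟩ := key u hu
  obtain ⟨T, hT⟩ := key v hv
  obtain ⟨g, rfl⟩ := MulAction.exists_smul_eq G S T
  have h1 : g⁻¹ * v * g ∈ Subgroup.zpowers u := by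
    have : v ∈ ((g • S : Sylow p G) : Subgroup G) := hT ▸ Subgroup.mem_zpowers v
    rw [Sylow.coe_subgroup_smul, Subgroup.mem_pointwise_smul_iff_inv_smul_mem, hS] at this
    simpa using this
  classical
  rw [mem_zpowers_iff_mem_range_orderOf, hu] at h1
  obtain ⟨k, hk, e⟩ := Finset.mem_image.1 h1
  refine ⟨k, Nat.pos_of_ne_zero ?_, Finset.mem_range.1 hk, isConj_iff.2 ⟨g, by rw [e]; group⟩⟩
  rintro rfl
  have : v = 1 := by simpa [mul_assoc, eq_inv_mul_iff_mul_eq] using e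
  rw [this, orderOf_one] at hv
  exact hp.out.one_lt.ne hv

variable {F : Type*} [Field F] {P : Subgroup (GL (Fin 3) F)} {A : Type*} [Group A] {ρ : P →* A}

/-- `ρ` identifies `P` modulo scalars with `A` -/
structure Cov (ρ : P →* A) : Prop where
  qs : QS P
  surj : Function.Surjective ρ
  ker : ∀ y, ρ y = 1 ↔ (y : GL (Fin 3) F) ∈ scalars (Fin 3) F

theorem exists_cov (hP : QS P) (e : Bar P ≃* A) : ∃ ρ : P →* A, Cov ρ :=
  ⟨e.toMonoidHom.comp (QuotientGroup.mk' _), hP, e.surjective.comp (QuotientGroup.mk'_surjective _),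
    fun _ => e.map_eq_one_iff.trans bar_mk_eq_one⟩

/-- `x` normalises `P` and induces `σ` -/
def Ind (ρ : P →* A) (x : GL (Fin 3) F) (σ : MulAut A) : Prop :=
  ∀ y : P, ∃ y' : P, (y' : GL (Fin 3) F) = x * y * x⁻¹ ∧ ρ y' = σ (ρ y)

theorem Ind.mul {x x' : GL (Fin 3) F} {σ σ' : MulAut A} (h : Ind ρ x σ) (h' : Ind ρ x' σ') :
    Ind ρ (x * x') (σ * σ') := fun y => by
  obtain ⟨y', e1, e2⟩ := h' y
  obtain ⟨y'', e3, e4⟩ := h y'
  exact ⟨y'', by rw [e3, e1]; group, by rw [e4, e2]; rfl⟩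

theorem Ind.inv [Finite P] {x : GL (Fin 3) F} {σ : MulAut A} (h : Ind ρ x σ) : Ind ρ x⁻¹ σ⁻¹ := by
  choose f e1 e2 using h
  have hf : Function.Injective f := fun a b e => Subtype.ext (by
    have := e1 a
    rw [e, e1 b] at this
    simpa using this.symm)
  intro y
  obtain ⟨z, rfl⟩ := Finite.surjective_of_injective hf y
  exact ⟨z, by rw [e1]; group, by rw [e2]; simp⟩

theorem ind_conj (p : P) : Ind ρ p (MulAut.conj (ρ p)) := fun y => ⟨p * y * p⁻¹, rfl, by simp⟩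

theorem Cov.central (h : Cov ρ) {z : P} (hz : ρ z = 1) (y : P) : z * y = y * z :=
  Subtype.ext (mul_comm_of_mem_scalars ((h.ker z).1 hz) y)

theorem Cov.cube (h : Cov ρ) {z : P} (hz : ρ z = 1) : z ^ 3 = 1 := by
  obtain ⟨c, hc⟩ := (mem_scalars_iff _).1 ((h.ker z).1 hz)
  have h3 := cube_eq_one_of_det (h.qs.det z.2) hc
  apply Subtype.ext
  apply Units.ext
  rw [SubmonoidClass.coe_pow, Units.val_pow_eq_pow_val, hc, smul_pow, h3, one_pow, one_smul]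
  rfl

theorem Cov.exists_ind [Finite P] (h : Cov ρ) {x : GL (Fin 3) F} (hx : ∀ y ∈ P, x * y * x⁻¹ ∈ P) :
    ∃ σ, Ind ρ x σ := by
  have := Finite.of_surjective ρ h.surj
  let φ : P →* P := ((MulAut.conj x).toMonoidHom.comp P.subtype).codRestrict P fun y => hx y y.2
  have hk : ∀ y, ρ (φ y) = 1 ↔ ρ y = 1 := fun y => by
    rw [h.ker, h.ker]
    exact conj_mem_scalars
  let s : A →* A := ρ.liftOfSurjective h.surj ⟨ρ.comp φ, fun y hy => (hk y).2 hy⟩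
  have hs : ∀ y, s (ρ y) = ρ (φ y) := fun y => ρ.liftOfRightInverse_comp_apply _ _ _ y
  have hi : Function.Injective s := (injective_iff_map_eq_one _).2 fun a ha => by
    obtain ⟨y, rfl⟩ := h.surj a
    exact (hk y).1 (hs y ▸ ha)
  exact ⟨MulEquiv.ofBijective s ⟨hi, Finite.surjective_of_injective hi⟩,
    fun y => ⟨φ y, rfl, (hs y).symm⟩⟩

theorem Cov.mem (h : Cov ρ) {x : GL (Fin 3) F} {a : A} (hx : Ind ρ x (MulAut.conj a)) :
    x ∈ P ⊔ scalars (Fin 3) F := by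
  obtain ⟨p, rfl⟩ := h.surj a
  have h1 := (ind_conj (ρ := ρ) p⁻¹).mul hx
  have h2 : ((p⁻¹ : P) : GL (Fin 3) F) * x ∈ scalars (Fin 3) F := h.qs.mem_scalars_of_comm fun y hy => by
    obtain ⟨y', e1, e2⟩ := h1 ⟨y, hy⟩
    have : ρ (y' * (⟨y, hy⟩ : P)⁻¹) = 1 := by simp [e2, mul_assoc]
    rw [← e1]
    exact (h.ker _).1 this
  have : x = p * (((p⁻¹ : P) : GL (Fin 3) F) * x) := by simp
  rw [this]
  exact Subgroup.mul_mem_sup p.2 h2

/-- the group of induced automorphisms -/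
def indGrp [Finite P] (ρ : P →* A) : Subgroup (MulAut A) where
  carrier := {σ | ∃ x, Ind ρ x σ}
  mul_mem' := fun ⟨_, h⟩ ⟨_, h'⟩ => ⟨_, h.mul h'⟩
  one_mem' := ⟨1, fun y => ⟨y, by simp, rfl⟩⟩
  inv_mem' := fun ⟨_, h⟩ => ⟨_, h.inv⟩

theorem Cov.conj_mem [Finite P] (h : Cov ρ) (a : A) : MulAut.conj a ∈ indGrp ρ := by
  obtain ⟨p, rfl⟩ := h.surj a
  exact ⟨_, ind_conj p⟩

theorem Cov.exists_mul (h : Cov ρ) {y y' : P} (e : ρ y = ρ y') : ∃ z, ρ z = 1 ∧ y' = y * z :=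
  ⟨y⁻¹ * y', by simp [e], by simp⟩

/-- induced automorphisms preserve traces of elements of order prime to three -/
theorem Cov.tr_eq [Finite P] (h : Cov ρ) {σ : MulAut A} (hσ : σ ∈ indGrp ρ) {y y' : P} {n : ℕ}
    (hn : n.Coprime 3) (hy : y ^ n = 1) (hy' : y' ^ n = 1) (hc : IsConj (σ (ρ y)) (ρ y')) :
    tr (y' : GL (Fin 3) F) = tr (y : GL (Fin 3) F) := by
  obtain ⟨c, hc⟩ := isConj_iff.1 hc
  obtain ⟨x, hx⟩ := (indGrp ρ).mul_mem (h.conj_mem c) hσ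
  obtain ⟨y1, e1, e2⟩ := hx y
  obtain ⟨z, hz, rfl⟩ := h.exists_mul (e2.trans hc)
  have h1 : y1 ^ n = 1 := Subtype.ext (by
    rw [SubmonoidClass.coe_pow, e1, conj_pow, ← SubmonoidClass.coe_pow, hy]; simp)
  rw [(show Commute y1 z from (h.central hz y1).symm).mul_pow, h1, one_mul] at hy'
  have h2 : z = 1 := by
    have := pow_gcd_eq_one.2 ⟨hy', h.cube hz⟩
    rwa [hn, pow_one] at this
  rw [h2, mul_one, e1, tr_conj]

theorem Cov.orderOf_eq (h : Cov ρ) {y : P} {p : ℕ} [hp : Fact p.Prime] (h3 : p ≠ 3)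
    (hy : orderOf y = p) : orderOf (ρ y) = p := by
  refine orderOf_eq_prime (by rw [← map_pow, ← hy, pow_orderOf_eq_one, map_one]) fun h1 => h3 ?_
  exact (Nat.prime_dvd_prime_iff_eq hp.out Nat.prime_three).1
    (hy ▸ orderOf_dvd_of_pow_eq_one (h.cube h1))

theorem Cov.comm_congr (h : Cov ρ) {U V U' V' : P} (e1 : ρ U = ρ U') (e2 : ρ V = ρ V') :
    ⁅U', V'⁆ = ⁅U, V⁆ := by
  obtain ⟨z, hz, rfl⟩ := h.exists_mul e1
  obtain ⟨w, hw, rfl⟩ := h.exists_mul e2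
  have h1 := h.central hz
  have h2 := h.central hw
  calc ⁅U * z, V * w⁆ = U * (z * (V * w)) * z⁻¹ * U⁻¹ * w⁻¹ * V⁻¹ := by
        simp only [commutatorElement_def]; group
    _ = U * V * (w * U⁻¹) * w⁻¹ * V⁻¹ := by rw [h1]; group
    _ = ⁅U, V⁆ := by rw [h2, commutatorElement_def]; group

/-- induced automorphisms preserve scalar commutators -/
theorem Cov.comm_eq [Finite P] (h : Cov ρ) {σ : MulAut A} (hσ : σ ∈ indGrp ρ) {U V U' V' : P}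
    (hc : ρ ⁅U, V⁆ = 1) (e1 : σ (ρ U) = ρ U') (e2 : σ (ρ V) = ρ V') : ⁅U', V'⁆ = ⁅U, V⁆ := by
  obtain ⟨x, hx⟩ := hσ
  obtain ⟨U1, a1, b1⟩ := hx U
  obtain ⟨V1, a2, b2⟩ := hx V
  rw [h.comm_congr (b1.trans e1) (b2.trans e2)]
  apply Subtype.ext
  have h1 := mul_comm_of_mem_scalars ((h.ker _).1 hc) x
  calc ((⁅U1, V1⁆ : P) : GL (Fin 3) F) = x * (⁅U, V⁆ : P) * x⁻¹ := by
        simp only [commutatorElement_def, Subgroup.coe_mul, Subgroup.coe_inv, a1, a2]; group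
    _ = _ := by rw [← h1]; group

theorem Cov.comm_inv (h : Cov ρ) {U V : P} (hc : ρ ⁅U, V⁆ = 1) : ⁅U⁻¹, V⁆ = ⁅U, V⁆⁻¹ := by
  have h1 := h.central (z := ⁅U, V⁆⁻¹) (by rw [map_inv, hc, inv_one]) U
  calc ⁅U⁻¹, V⁆ = U⁻¹ * (⁅U, V⁆⁻¹ * U) := by simp only [commutatorElement_def]; group
    _ = _ := by rw [h1]; group

theorem Cov.eq_one_of_inv [Finite P] (h : Cov ρ) {σ : MulAut A} (hσ : σ ∈ indGrp ρ) {U V : P}
    (hc : ρ ⁅U, V⁆ = 1) (e1 : σ (ρ U) = (ρ U)⁻¹) (e2 : σ (ρ V) = ρ V) : ⁅U, V⁆ = 1 := by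
  have h1 := h.comm_eq hσ hc (U' := U⁻¹) (e1.trans (map_inv ρ U).symm) e2
  rw [h.comm_inv hc] at h1
  have h3 := h.cube hc
  rwa [pow_succ, pow_two, mul_eq_one_iff_inv_eq.2 h1, one_mul] at h3

theorem Cov.eq_one_of_rot [Finite P] (h : Cov ρ) {σ : MulAut A} (hσ : σ ∈ indGrp ρ) {U V : P}
    (hc : ρ ⁅U, V⁆ = 1) (e1 : σ (ρ U) = ρ U * ρ V) (e2 : σ (ρ V) = (ρ U)⁻¹ * ρ V) : ⁅U, V⁆ = 1 := by
  have h1 := h.comm_eq hσ hc (U' := U * V) (V' := U⁻¹ * V) (by rw [e1, map_mul])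
    (by rw [e2, map_mul, map_inv])
  have h2 : ⁅U * V, U⁻¹ * V⁆ = ⁅U, V⁆ * ⁅U⁻¹, V⁆⁻¹ := by simp only [commutatorElement_def]; group
  rw [h2, h.comm_inv hc, inv_inv] at h1
  exact mul_left_cancel (h1.trans (mul_one _).symm)

end General

/-! ### computations in `A₆`, `A₇`, `SL₃(2)` -/

abbrev A6 := alternatingGroup (Fin 6)

def g6 : A6 := ⟨c[0, 1, 2, 3, 4], Perm.mem_alternatingGroup.2 (by decide +kernel)⟩
def a6 : A6 := ⟨c[3, 4, 5], Perm.mem_alternatingGroup.2 (by decide +kernel)⟩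
def b6 : A6 := ⟨c[0, 1, 2], Perm.mem_alternatingGroup.2 (by decide +kernel)⟩
def r6 : A6 := ⟨swap 1 4 * swap 2 3, Perm.mem_alternatingGroup.2 (by decide +kernel)⟩

def pf (l m : Fin 6 → Fin 6) (h : ∀ i, m (l i) = i ∧ l (m i) = i := by decide) : Perm (Fin 6) :=
  ⟨l, m, fun i => (h i).1, fun i => (h i).2⟩

def ts : List (Perm (Fin 6)) :=
  [pf ![3, 4, 0, 5, 1, 2] ![2, 4, 5, 0, 1, 3], pf ![3, 0, 4, 1, 5, 2] ![1, 3, 5, 0, 2, 4],
    pf ![0, 3, 1, 4, 5, 2] ![0, 2, 5, 1, 3, 4], pf ![3, 0, 4, 5, 2, 1] ![1, 5, 4, 0, 2, 3],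
    pf ![0, 3, 4, 2, 5, 1] ![0, 5, 3, 1, 2, 4]]

theorem key6 : ∀ c : Perm (Fin 6), c * c * c = 1 → (g6.1 * c) ^ 4 = 1 →
    (g6.1 * g6.1 * c⁻¹) ^ 3 = 1 → (∃ i < 5, c = g6.1 ^ i * a6.1 * (g6.1 ^ i)⁻¹) ∨
      ∃ t ∈ ts, t * c * t⁻¹ = a6.1 * b6.1 ∧
        t * (g6.1 * c⁻¹ * g6.1⁻¹ * c⁻¹ * g6.1) * t⁻¹ = a6.1⁻¹ * b6.1 := by
  decide +kernel

theorem sign_ts : ∀ t ∈ ts, Perm.sign t = 1 := by decide +kernel

theorem facts6 : a6 * a6 * a6 = 1 ∧ (g6 * a6) ^ 4 = 1 ∧ (g6 * g6 * a6⁻¹) ^ 3 = 1 ∧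
    g6 * a6⁻¹ * g6⁻¹ * a6⁻¹ * g6 = b6 ∧ g6 ^ 5 = 1 ∧ g6 ≠ 1 ∧ r6 * g6 * r6⁻¹ = g6 ^ 4 ∧
    a6 ^ 3 = 1 ∧ a6 ≠ 1 ∧ a6 * b6 = b6 * a6 ∧ swap 3 4 * a6.1 * (swap 3 4)⁻¹ = a6.1⁻¹ ∧
    swap 3 4 * b6.1 * (swap 3 4)⁻¹ = b6.1 := by
  decide +kernel

/-- a Sylow 3-subgroup of `A₆` -/
def R6 : Subgroup A6 where
  carrier := {x | ∃ i j : Fin 3, x = a6 ^ (i : ℕ) * b6 ^ (j : ℕ)}
  mul_mem' := by
    rintro _ _ ⟨i, j, rfl⟩ ⟨k, l, rfl⟩
    revert i j k l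
    decide +kernel
  one_mem' := ⟨0, 0, by simp⟩
  inv_mem' := by
    rintro _ ⟨i, j, rfl⟩
    revert i j
    decide +kernel

theorem card_R6 : Nat.card R6 = 9 := by
  have : Function.Bijective
      (fun x : Fin 3 × Fin 3 => (⟨a6 ^ (x.1 : ℕ) * b6 ^ (x.2 : ℕ), x.1, x.2, rfl⟩ : R6)) := by
    refine ⟨fun x y e => ?_, fun ⟨_, i, j, e⟩ => ⟨(i, j), Subtype.ext e.symm⟩⟩
    have := congrArg Subtype.val e
    revert x y
    simp only [Subtype.mk.injEq, imp_self, true_imp_iff, forall_const]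
    decide +kernel
  rw [← Nat.card_eq_of_bijective _ this]
  simp

theorem card_A6 : Nat.card A6 = 360 := by
  have := Classical.alt_card_mul 6 (by norm_num)
  norm_num [Nat.factorial] at this ⊢
  omega

abbrev A7 := alternatingGroup (Fin 7)

def g7 : A7 := ⟨c[0, 1, 2, 3, 4, 5, 6], Perm.mem_alternatingGroup.2 (by decide +kernel)⟩
def r7 : Perm (Fin 7) := swap 1 6 * swap 2 5 * swap 3 4

theorem facts7 : g7 ^ 7 = 1 ∧ g7 ≠ 1 ∧ r7 * g7.1 * r7⁻¹ = g7.1⁻¹ ∧ Perm.sign r7 = -1 := by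
  decide +kernel

theorem card_A7 : Nat.card A7 = 2520 := by
  have := Classical.alt_card_mul 7 (by norm_num)
  norm_num [Nat.factorial] at this ⊢
  omega

abbrev L32 := SL(3, ZMod 2)

def gL : L32 := ⟨!![0, 0, 1; 1, 0, 1; 0, 1, 0], by decide +kernel⟩
def cL : L32 := ⟨!![1, 1, 0; 0, 1, 0; 0, 0, 1], by decide +kernel⟩
def tL : L32 := ⟨!![0, 0, 1; 0, 1, 0; 1, 1, 1], by decide +kernel⟩

theorem keyL : ∀ a b c d e f g h i : ZMod 2,
    !![a, b, c; d, e, f; g, h, i] * !![a, b, c; d, e, f; g, h, i] = 1 →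
    (gL.1 * !![a, b, c; d, e, f; g, h, i]) ^ 4 = 1 →
    ∃ k < 7, !![a, b, c; d, e, f; g, h, i] * gL.1 ^ k = gL.1 ^ k * cL.1 := by
  decide +kernel

theorem factsL : cL * cL = 1 ∧ (gL * cL) ^ 4 = 1 ∧ gL ^ 7 = 1 ∧ gL ≠ 1 ∧ tL * gL = gL ^ 2 * tL := by
  decide +kernel

theorem wordsL : ∀ (i j : Fin 3) (h : i ≠ j), SpecialLinearGroup.transvection h (1 : ZMod 2) ∈
    [cL, gL ^ 3 * cL * gL ^ 3 * cL * gL ^ 2, gL ^ 4 * cL * gL ^ 3 * cL * gL,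
      gL ^ 2 * cL * gL * cL * gL * cL, gL ^ 4 * cL * gL ^ 2 * cL,
      gL ^ 5 * cL * gL * cL * gL ^ 3] := by
  decide +kernel

theorem aut_eq_one {σ : MulAut L32} (h1 : σ gL = gL) (h2 : σ cL = cL) : σ = 1 := by
  have hc := Classical.sl_closure_transvection_of_addClosure (ι := Fin 3) ({1} : Set (ZMod 2))
    (Classical.zmod_addClosure_one 2)
  have : σ.toMonoidHom = MonoidHom.id _ := MonoidHom.eq_of_eqOn_dense hc (by
    rintro _ ⟨i, j, hij, c, rfl, rfl⟩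
    have := wordsL i j hij
    simp only [List.mem_cons, List.not_mem_nil, or_false] at this
    rcases this with e | e | e | e | e | e <;> simp [e, h1, h2])
  ext1 x
  exact DFunLike.congr_fun this x

/-- an automorphism of `L₃(2)` fixing an element of order seven is inner -/
theorem inner_of_fix {σ : MulAut L32} (h : σ gL = gL) : ∃ a, σ = MulAut.conj a := by
  obtain ⟨f1, f2, -⟩ := factsL
  have e1 : σ cL * σ cL = 1 := by rw [← map_mul, f1, map_one]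
  have e2 : (gL * σ cL) ^ 4 = 1 := by rw [← h, ← map_mul, ← map_pow, f2, map_one]
  have e := Matrix.eta_fin_three (σ cL).1
  have e1' : (σ cL).1 * (σ cL).1 = 1 := congrArg Subtype.val e1
  have e2' : (gL.1 * (σ cL).1) ^ 4 = 1 := congrArg Subtype.val e2
  rw [e] at e1' e2'
  obtain ⟨k, -, hk⟩ := keyL _ _ _ _ _ _ _ _ _ e1' e2'
  rw [← e] at hk
  have hk' : σ cL * gL ^ k = gL ^ k * cL := Subtype.ext hk
  refine ⟨gL ^ k, eq_of_inv_mul_eq_one (aut_eq_one ?_ ?_) |>.symm⟩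
  · rw [← map_inv, MulAut.mul_apply, MulAut.conj_apply, h]; group
  · rw [← map_inv, MulAut.mul_apply, MulAut.conj_apply, inv_inv, mul_assoc, hk']; group

end CfsgLib.Mit.Nm
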